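import Cfsg.Agent.Lib.J4M.Gen

/-! Arithmetic conditions on the order of a subgroup of the fourth Janko group. -/

set_option autoImplicit false
set_option maxRecDepth 100000
set_option linter.unusedSectionVars false

namespace H74.J4M
open Subgroup H68 H2 H66.J4 H75.J4

variable {G : Type*} [Group G] [Finite G]

/-- counting with a trivial intersection subgroup -/
theorem ti_count {M N P : Subgroup G} (hN : N ≤ M) (hP : P ≤ N)
    (h : ∀ g ∈ M, ∀ p ∈ P, p ≠ 1 → g * p * g⁻¹ ∈ N → g ∈ N) :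
    ∃ r, r ≡ 1 [MOD Nat.card P] ∧ Nat.card M = r * Nat.card N := by
  let X := ↥((M : Set G) \ N)
  letI : MulAction (N × P) X :=
    { smul := fun a x => ⟨a.1 * x * (a.2 : G)⁻¹, M.mul_mem (M.mul_mem (hN a.1.2) x.2.1) (M.inv_mem (hN (hP a.2.2))),
        fun c => x.2.2 ((N.mul_mem_cancel_left a.1.2).1 ((N.mul_mem_cancel_right (N.inv_mem (hP a.2.2))).1 c))⟩
      one_smul := fun x => Subtype.ext (show ((1 : N) : G) * x * ((1 : P) : G)⁻¹ = x by simp)
      mul_smul := fun a b x => Subtype.ext (show ((a.1 * b.1 : N) : G) * x * ((a.2 * b.2 : P) : G)⁻¹ =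
        a.1 * (b.1 * x * (b.2 : G)⁻¹) * (a.2 : G)⁻¹ by simp [mul_assoc]) }
  have e := Nat.card_congr (MulAction.selfEquivOrbitsQuotientProd (G := N × P) (X := X) fun x => by
    rw [eq_bot_iff]
    intro a ha
    have e1 : (a.1 : G) * x * (a.2 : G)⁻¹ = x := congrArg Subtype.val ha
    have e2 : (x : G) * a.2 * (x : G)⁻¹ = a.1 := by rw [mul_inv_eq_iff_eq_mul, ← mul_inv_eq_iff_eq_mul.1 e1]
    have e3 : (a.2 : G) = 1 := by
      by_contra c
      exact x.2.2 (h x x.2.1 _ a.2.2 c (e2 ▸ a.1.2))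
    rw [e3] at e2
    exact Prod.ext (Subtype.ext (by simpa using e2.symm)) (Subtype.ext e3))
  have e2 : Nat.card X + Nat.card N = Nat.card M := by
    have := Set.ncard_sdiff_add_ncard_of_subset (s := (N : Set G)) (t := M) hN
    exact this
  rw [Nat.card_prod, Nat.card_prod] at e
  refine ⟨_ * Nat.card P + 1, ?_, by rw [← e2, e]; ring⟩
  exact ((Nat.modEq_iff_dvd' (Nat.le_add_left _ _)).2 (by rw [Nat.add_sub_cancel]; exact Dvd.intro_left _ rfl)).symm

/-- the Sylow orders of `k` and `c` agree modulo `p` -/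
def BS (k p c : ℕ) : Prop := ∀ t ∈ LJ, t.1 ≠ p → Nat.gcd k (t.1 ^ t.2) % p = Nat.gcd c (t.1 ^ t.2) % p

instance decBS (k p c : ℕ) : Decidable (BS k p c) := by unfold BS; infer_instance

/-- Sylow's theorem for a large prime -/
def AP (k p em : ℕ) (nm : Bool) : Prop := p ∣ k → ∃ e, e < em + 1 ∧ (e ∣ em ∧ p * e ∣ k ∧ k / (p * e) % p = 1 ∧
  (e = 1 → BS k p p) ∧ (nm = true → e = em → k = p * em))

instance decAP (k p em : ℕ) (nm : Bool) : Decidable (AP k p em nm) := by unfold AP; infer_instance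

/-- Sylow's theorem for the prime 11 -/
def A11 (k : ℕ) : Prop := 11 ∣ k → ∃ e ∈ [1, 2, 3, 4, 5, 6, 8, 10, 12, 15, 16, 20, 24, 30, 40, 48, 60, 80, 120, 240],
  Nat.gcd k 1331 * e ∣ k ∧ k / (Nat.gcd k 1331 * e) % Nat.gcd k 1331 = 1

instance decA11 (k : ℕ) : Decidable (A11 k) := by unfold A11; infer_instance

/-- all the conditions -/
def OK (k : ℕ) (a b c : Bool) : Prop :=
  AP k 43 14 c ∧ AP k 37 12 b ∧ AP k 31 10 false ∧ AP k 29 28 a ∧ AP k 23 22 false ∧ A11 k

instance decOK (k : ℕ) (a b c : Bool) : Decidable (OK k a b c) := by unfold OK; infer_instance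

variable (G) in
/-- the normalisers of the subgroups of order `p` are maximal -/
def Mx (p : ℕ) : Prop := ∀ y : G, orderOf y = p → IsCoatom (normalizer (zpowers y : Set G))

theorem mx_of {p : ℕ} (hp : p.Prime) (h2 : ¬ p ^ 2 ∣ Nat.card G) {x : G} (o : orderOf x = p)
    (h : IsCoatom (normalizer (zpowers x : Set G))) : Mx G p := fun y oy => by
  have := Fact.mk hp
  obtain ⟨k, -, i, hi, e⟩ := exists_conj_prime (p := p) (K := ⊤) (by rwa [card_top]) (mem_top x) (mem_top y) o oy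
  have i0 : i ≠ 0 := fun e' => by
    rw [e', pow_zero, conj_eq_one_iff] at e; rw [e, orderOf_one] at o; exact hp.one_lt.ne o
  have := coatom_cj k h
  rw [cj_normalizer, cj, MonoidHom.map_zpowers] at this
  rwa [← zpowers_pow_prime hp oy hi i0, ← e]

theorem bs_of {p : ℕ} [Fact p.Prime] (hc : Nat.card G = 86775571046077562880) {M : Subgroup G} {w : G}
    (o : orderOf w = p) (hw : w ∈ M) (h2 : ¬ p ^ 2 ∣ Nat.card M)
    (hN : M ⊓ normalizer (zpowers w : Set G) ≤ centralizer {w}) :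
    BS (Nat.card M) p (Nat.card ↥(M ⊓ centralizer {w})) ∧ ∃ K, K ≤ M ∧ Nat.card K * p = Nat.card M := by
  obtain ⟨K, a, b, c⟩ := burnS o hw h2 hN
  refine ⟨fun t ht ne => ?_, K, a, b⟩
  have := (by decide +kernel : ∀ t ∈ LJ, t.1.Prime ∧ ¬ t.1 ^ (t.2 + 1) ∣ 86775571046077562880) t ht
  exact c _ _ this.1 ne fun d => this.2 (hc ▸ d.trans (card_subgroup_dvd_card M))

theorem div_of {k r n p : ℕ} (hp : 1 < p) (h0 : 0 < k) (hr : r ≡ 1 [MOD p]) (e : k = r * n) :
    n ∣ k ∧ k / n % p = 1 := by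
  refine ⟨e ▸ Dvd.intro_left _ rfl, ?_⟩
  rw [e, Nat.mul_div_cancel _ (Nat.pos_of_mul_pos_left (e ▸ h0)), hr, Nat.mod_eq_of_lt hp]

variable [IsSimpleGroup G] {m : Md G} {x : G} {U : Subgroup G} (j : J11 m x U)
include j

theorem dvd_J (M : Subgroup G) : Nat.card M ∣ 86775571046077562880 := j.hc ▸ card_subgroup_dvd_card M

theorem ap_of {p em : ℕ} (hp : (p, p * em) ∈ [(23, 23 * 22), (29, 29 * 28), (31, 31 * 10), (37, 37 * 12), (43, 43 * 14)])
    {nm : Bool} (hm : nm = true → Mx G p) {M : Subgroup G} (hM : M ≠ ⊤) : AP (Nat.card M) p em nm := fun d => by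
  obtain ⟨pp, p2, e0⟩ := (by decide +kernel : ∀ q ∈ [(23, 23 * 22), (29, 29 * 28), (31, 31 * 10), (37, 37 * 12),
    (43, 43 * 14)], q.1.Prime ∧ ¬ q.1 ^ 2 ∣ 86775571046077562880 ∧ 0 < q.2) _ hp
  have := Fact.mk pp
  obtain ⟨y, hy, oy⟩ := exists_order pp d
  obtain ⟨c1, c2⟩ := big j hp oy
  have p2' : ¬ p ^ 2 ∣ Nat.card M := fun a => p2 (a.trans (dvd_J j M))
  have cy : Nat.card (zpowers y) = p := by rw [Nat.card_zpowers, oy]
  obtain ⟨r, hr, e⟩ := card_norm_modEq (p := p) (zpowers_le.2 hy) cy p2'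
  have l : zpowers y ≤ M ⊓ normalizer (zpowers y : Set G) := le_inf (zpowers_le.2 hy) le_normalizer
  obtain ⟨a, ha⟩ := cy ▸ card_dvd_of_le l
  have d2 : a ∣ em := Nat.dvd_of_mul_dvd_mul_left pp.pos (ha ▸ c2 ▸ card_dvd_of_le inf_le_right)
  obtain ⟨d3, d4⟩ := div_of pp.one_lt Nat.card_pos hr (ha ▸ e)
  refine ⟨a, Nat.lt_succ_of_le (Nat.le_of_dvd (Nat.pos_of_mul_pos_left e0) d2), d2, d3, d4, fun a1 => ?_,
    fun n a1 => ?_⟩
  · have := (bs_of j.hc oy hy p2' (c1 ▸ (eq_of_le_of_card_ge l (by rw [ha, a1, cy, mul_one])).ge)).1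
    rwa [c1, inf_eq_right.2 (zpowers_le.2 hy), cy] at this
  · have l2 : normalizer (zpowers y : Set G) ≤ M :=
      (eq_of_le_of_card_ge inf_le_right (by rw [ha, a1, c2])).ge.trans inf_le_left
    rw [← c2, (((hm n y oy).le_iff.1 l2).resolve_left hM)]

theorem ti_x {g w : G} (hw : w ∈ zpowers x) (w1 : w ≠ 1) (hg : g * w * g⁻¹ ∈ U) : g ∈ normalizer (U : Set G) := by
  have ox := order_11 j.h j.h11
  obtain ⟨y, hy, n, -, c, -⟩ := exists_y j.h j.h11 j.o j.hc j.hP
  have z : ∀ a ∈ zpowers x, a ≠ 1 → zpowers a = zpowers x := fun a ha a1 => by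
    refine eq_of_le_of_card_ge (zpowers_le.2 ha) ?_
    have := card_dvd_of_le (zpowers_le.2 ha)
    rw [Nat.card_zpowers x, ox] at this ⊢
    rcases (Nat.dvd_prime (by norm_num)).1 this with e1 | e1
    · rw [Nat.card_zpowers, orderOf_eq_one_iff] at e1; exact absurd e1 a1
    · rw [e1]
  have h1 : g * w * g⁻¹ ∈ zpowers x := by
    by_contra h1
    obtain ⟨a, -, e⟩ := conj_y j.h j.h11 j.o j.hc j.hP hy n c hg h1
    obtain ⟨b, -, e'⟩ := conj_x j.h j.h11 j.o j.hc j.hP hw w1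
    have c1 := card_cent_conj a y
    have c2 := card_cent_conj b x
    rw [e, card_cent_conj, c] at c1
    rw [e', c1, card_C11 j.h j.h11 j.o j.hc] at c2
    omega
  rw [norm_U j.h j.h11 j.o j.hc j.hP]
  refine mem_normalizer_of_cj_le ?_
  rw [← z w hw w1, cj, MonoidHom.map_zpowers, z w hw w1]
  exact zpowers_le.2 h1

/-- the Sylow 11-subgroups have trivial intersections -/
theorem ti {g w : G} (hw : w ∈ U) (w1 : w ≠ 1) (hg : g * w * g⁻¹ ∈ U) : g ∈ normalizer (U : Set G) := by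
  by_cases h : w ∈ zpowers x
  · exact ti_x j h w1 hg
  have ox := order_11 j.h j.h11
  obtain ⟨cU, eU⟩ := U_main j.h j.h11 j.o j.hc
  obtain ⟨y, hy, n, -, c, -⟩ := exists_y j.h j.h11 j.o j.hc j.hP
  obtain ⟨a, -, e⟩ := conj_y j.h j.h11 j.o j.hc j.hP hy n c hw h
  have c1 : Nat.card (centralizer {g * w * g⁻¹}) = 242 := by rw [card_cent_conj, ← e, card_cent_conj, c]
  have d := sq_dvd_cent (p := 11) hg (orderOf_eq_prime (eU _ hg) (by rwa [Ne, conj_eq_one_iff])) (by rw [cU]; norm_num)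
  have c2 : Nat.card ↥(U ⊓ centralizer {g * w * g⁻¹}) = 11 ^ 2 := by
    have d1 := cU ▸ card_dvd_of_le (inf_le_left : U ⊓ centralizer {g * w * g⁻¹} ≤ _)
    have d2 := c1 ▸ card_dvd_of_le (inf_le_right : U ⊓ centralizer {g * w * g⁻¹} ≤ _)
    exact Nat.dvd_antisymm (Nat.dvd_gcd d1 d2) d
  obtain ⟨r, hr, e1⟩ := sylowIn_index (sylowIn_of_card (p := 11) inf_le_right c2 (by rw [c1]; norm_num))
  obtain ⟨b, hb⟩ := c2 ▸ card_dvd_of_le (le_inf inf_le_right le_normalizer : U ⊓ centralizer {g * w * g⁻¹} ≤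
    centralizer {g * w * g⁻¹} ⊓ normalizer ((U ⊓ centralizer {g * w * g⁻¹} : Subgroup G) : Set G))
  have r1 : r = 1 := by
    rw [c1, hb] at e1
    have : r ≤ 2 := Nat.le_of_dvd (by norm_num) (Dvd.intro b (by nlinarith))
    unfold Nat.ModEq at hr
    omega
  rw [r1, one_mul] at e1
  refine ti_x j (mem_zpowers x) (fun e => by rw [e, orderOf_one] at ox; omega)
    (mem_of_card inf_le_right ((eq_of_le_of_card_ge inf_le_left e1.le).ge.trans inf_le_right) (a := 2)
      (by rw [c1, c2]; rfl) (mem_cent.2 ?_) (by rw [H9.orderOf_conj, ox]; norm_num)).1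
  rw [conj_mul, conj_mul, mem_cent.1 (j.o.le hw)]

theorem a11_of (M : Subgroup G) : A11 (Nat.card M) := fun d => by
  obtain ⟨cU, -⟩ := U_main j.h j.h11 j.o j.hc
  obtain ⟨P0, hP0⟩ := exists_sylowIn 11 M
  obtain ⟨g, hg⟩ := conj_U j.h j.h11 j.o j.hc hP0.isPGroup
  rw [← card_cj g M] at d ⊢
  have hP := hP0.cj g
  have hU := cj_le_iff'.2 hg
  generalize cj g M = M' at *
  generalize cj g P0 = P at *
  have c : Nat.card P = Nat.gcd (Nat.card M') 1331 :=
    sylowIn_gcd (E := 3) hP fun a => absurd (a.trans (dvd_J j M')) (by norm_num)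
  obtain ⟨w, hw, w1⟩ := P.bot_or_exists_ne_one.resolve_left (hP.ne_bot d)
  have l : P ≤ M' ⊓ normalizer (P : Set G) := le_inf hP.le le_normalizer
  have hN := hP.mono l inf_le_left
  obtain ⟨r, hr, e⟩ := ti_count inf_le_left l fun g hg p hp p1 n => by
    have h1 : g * p * g⁻¹ ∈ P := zpowers_le.1 (hN.le_of_normalizes (isPGroup_cj g (hP.isPGroup.to_le (zpowers_le.2 hp))
      |>.of_equiv (MulEquiv.subgroupCongr (MonoidHom.map_zpowers _ _))) (zpowers_le.2 n) (zpowers_le.2 n.2))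
    have h2 := ti j (hU hp) p1 (hU h1)
    have h3 : M' ⊓ U = P := hP.eq_of_le ((IsPGroup.of_card cU).to_inf_right) (le_inf hP.le hU) inf_le_left
    exact ⟨hg, h3 ▸ inf_normalizer_le_normalizer_inf ⟨le_normalizer hg, h2⟩⟩
  have e2 := H1.card_mul_relIndex_of_le l
  have d2 : P.relIndex (M' ⊓ normalizer (P : Set G)) ∣ 240 := by
    refine Nat.Coprime.dvd_of_dvd_mul_left (m := 11 ^ 3)
      (((Nat.Prime.coprime_iff_not_dvd (by norm_num)).2 hN.not_dvd_relIndex).symm.pow_right 3) ?_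
    have l2 : M' ⊓ normalizer (P : Set G) ≤ normalizer (U : Set G) := fun n hn => ti j (hU hw) w1
      (hU (conj_mem_of_mem_normalizer hn.2 hw))
    exact (Dvd.intro_left _ e2).trans ((card_dvd_of_le l2).trans (card_norm_U j.h j.h11 j.o j.hc j.hP).dvd)
  refine ⟨_, (by decide +kernel : ∀ e ∈ Nat.divisors 240,
    e ∈ [1, 2, 3, 4, 5, 6, 8, 10, 12, 15, 16, 20, 24, 30, 40, 48, 60, 80, 120, 240]) _
    (Nat.mem_divisors.2 ⟨d2, by norm_num⟩), ?_⟩
  rw [← c, e2]
  exact div_of ((one_lt_card_iff_ne_bot P).2 (hP.ne_bot d)) Nat.card_pos hr e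

theorem ok_of {a b c : Bool} (ha : a = true → Mx G 29) (hb : b = true → Mx G 37) (hc : c = true → Mx G 43)
    {M : Subgroup G} (hM : M ≠ ⊤) : OK (Nat.card M) a b c :=
  ⟨ap_of j (by decide) hc hM, ap_of j (by decide) hb hM, ap_of j (by decide) (fun h => absurd h (by decide)) hM,
    ap_of j (by decide) ha hM, ap_of j (by decide) (fun h => absurd h (by decide)) hM, a11_of j M⟩

theorem top_of_two {M : Subgroup G} (h : Nat.card M * 2 = 86775571046077562880) : False := by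
  have e := M.card_mul_index
  rw [j.hc, ← h] at e
  have i := Nat.eq_of_mul_eq_mul_left Nat.card_pos e
  rcases (normal_of_index_eq_two i).eq_bot_or_eq_top with a | a
  · rw [a, card_bot] at h; omega
  · rw [a, index_top] at i; omega

theorem top_of_card {M : Subgroup G} (h : Nat.card M = 86775571046077562880) : M = ⊤ :=
  eq_top_of_card_eq M (h.trans j.hc.symm)

omit j in
theorem chk3 : allD (fun k => decide (46139 ∣ k → OK k false false false →
    k * 2 = 86775571046077562880 ∨ k = 86775571046077562880)) LJ 1 = true := by decide +kernel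

/-- a subgroup whose order is divisible by 29, 37 and 43 is the whole group -/
theorem top_of_three {M : Subgroup G} (a : 29 ∣ Nat.card M) (b : 37 ∣ Nat.card M) (c : 43 ∣ Nat.card M) : M = ⊤ := by
  by_contra n
  rcases of_decide_eq_true (allJ chk3 (dvd_J j M)) (Nat.Coprime.mul_dvd_of_dvd_of_dvd (by norm_num)
    (Nat.Coprime.mul_dvd_of_dvd_of_dvd (by norm_num) a b) c)
    (ok_of j (fun h => absurd h (by decide)) (fun h => absurd h (by decide)) (fun h => absurd h (by decide)) n) with e | e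
  exacts [top_of_two j e, n (top_of_card j e)]

omit j in
theorem eqns_Ar : True := by
  have := @BS.eq_1
  have := @AP.eq_1
  have := @A11.eq_1
  have := @OK.eq_1
  have := @Mx.eq_1.{0}
  trivial

end H74.J4M
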