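import Cfsg.Agent.Lib.J4M.Ar
import Cfsg.Agent.Lib.J4L.Ten

/-! The maximal 2-local subgroups of the fourth Janko group, given the maximality of three Frobenius subgroups. -/

set_option autoImplicit false
set_option maxRecDepth 100000
set_option linter.unusedSectionVars false
set_option Elab.async false

namespace H74.J4M
open Subgroup H68 H2 H66.J4 H75.J4

variable {G : Type*} [Group G] [Finite G]

theorem inf_cent_ne_bot {p : ℕ} [Fact p.Prime] {A B : Subgroup G} (hB : IsPGroup p B)
    (hA : B ≤ normalizer (A : Set G)) (d : p ∣ Nat.card A) : A ⊓ centralizer (B : Set G) ≠ ⊥ := by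
  letI : MulAction B A :=
    { smul := fun a x => ⟨a * x * (a : G)⁻¹, conj_mem_of_mem_normalizer (hA a.2) x.2⟩
      one_smul := fun x => Subtype.ext (show ((1 : B) : G) * x * ((1 : B) : G)⁻¹ = x by simp)
      mul_smul := fun a b x => Subtype.ext (show ((a * b : B) : G) * x * ((a * b : B) : G)⁻¹ =
        a * (b * x * (b : G)⁻¹) * (a : G)⁻¹ by simp [mul_assoc]) }
  obtain ⟨b, hb, n⟩ := hB.exists_fixed_point_of_prime_dvd_card_of_fixed_point A d (a := 1) fun g =>
    Subtype.ext (show (g : G) * 1 * (g : G)⁻¹ = 1 by simp)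
  refine ne_bot_iff_exists_ne_one.2 ⟨⟨b, b.2, mem_centralizer_iff.2 fun g hg => ?_⟩,
    fun e => n (Subtype.ext (congrArg Subtype.val e).symm)⟩
  exact mul_inv_eq_iff_eq_mul.1 (congrArg Subtype.val (hb ⟨g, hg⟩))

theorem coatom_of {X : Subgroup G} {n : ℕ} (c : Nat.card X = n) (h0 : n ≠ Nat.card G)
    (h : ∀ M, X ≤ M → M ≠ ⊤ → Nat.card M ≤ n) : IsCoatom X :=
  ⟨fun e => h0 (by rw [← c, e, card_top]), fun M l => by_contra fun a =>
    l.ne (eq_of_le_of_card_ge l.le (c ▸ h M l.le a))⟩

theorem chkV : allD (fun k => decide (501397585920 ∣ k → OK k false false false →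
    k = 501397585920 ∨ k = 86775571046077562880)) LJ 1 = true := by decide +kernel

theorem chkH : allD (fun k => decide (21799895040 ∣ k → k / 864 % 3 = 1 → OK k true true true →
    k = 21799895040 ∨ k = 86775571046077562880)) LJ 1 = true := by decide +kernel

theorem chkN : allD (fun k => decide (660602880 ∣ k → k / 2520 % 7 = 1 → OK k true true true →
    k = 660602880 ∨ k = 86775571046077562880)) LJ 1 = true := by decide +kernel

theorem chkA : allD (fun k => decide (10239344640 ∣ k → OK k true true true →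
    k ≤ 33 * 10239344640 ∨ k * 2 = 86775571046077562880 ∨ k = 86775571046077562880)) LJ 1 = true := by
  decide +kernel

variable [IsSimpleGroup G] {m : Md G} {x : G} {U : Subgroup G} (j : J11 m x U) (m0 : Md G)
include j

theorem coatom_V : IsCoatom (normalizer (m0.V : Set G)) :=
  coatom_of m0.card_NV (by rw [j.hc]; norm_num) fun M l n => by
    rcases of_decide_eq_true (allJ chkV (dvd_J j M)) (m0.card_NV.symm.dvd.trans (card_dvd_of_le l))
      (ok_of j (fun h => absurd h (by decide)) (fun h => absurd h (by decide)) (fun h => absurd h (by decide)) n)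
      with e | e
    exacts [e.le, absurd (top_of_card j e) n]

theorem A_norm {M : Subgroup G} (l : normalizer (m0.A : Set G) ≤ M) (c : Nat.card M ≤ 33 * 10239344640) {h : G}
    (hh : h ∈ M) : m0.A ≤ normalizer (cj h m0.A : Set G) := by
  rw [← cj_normalizer]
  have cN : Nat.card (normalizer (m0.A : Set G)) = 10239344640 := m0.card_NA
  have cA : Nat.card m0.A = 2 ^ 10 := m0.card_A
  have irr := fun W => m0.irred_A (W := W)
  have cen : m0.A ≤ centralizer (m0.A : Set G) := m0.FA.cent_eq.ge
  generalize m0.A = A at *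
  set N := normalizer (A : Set G) with hN
  have AN : A ≤ N := le_normalizer
  have i1 : (cj h N).relIndex M ≤ 33 := by
    have e := H1.card_mul_relIndex_of_le (cj_le_of_mem hh l)
    rw [card_cj, cN] at e
    omega
  have i2 : (cj h N).relIndex N ≤ 33 := (relIndex_le_of_le_right l index_ne_zero_of_finite).trans i1
  have e1 := H1.card_inf_mul_relIndex (cj h N) N
  have e2 := H1.card_sup_mul_card_inf_of_le_normalizer (inf_le_right : cj h N ⊓ N ≤ N)
  obtain ⟨b, hb⟩ := card_dvd_of_le (sup_le inf_le_right AN : cj h N ⊓ N ⊔ A ≤ N)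
  obtain ⟨a, ha⟩ := card_dvd_of_le (inf_le_right : cj h N ⊓ N ⊓ A ≤ A)
  have p1 : 0 < Nat.card ↥(cj h N ⊓ N) := Nat.card_pos
  have p2 : 0 < Nat.card ↥(cj h N ⊓ N ⊓ A) := Nat.card_pos
  have e3 : Nat.card ↥(cj h N ⊓ N ⊔ A) = Nat.card ↥(cj h N ⊓ N) * a :=
    Nat.eq_of_mul_eq_mul_right p2 (by rw [e2, ha]; ring)
  have e4 : (cj h N).relIndex N = a * b := Nat.eq_of_mul_eq_mul_left p1 (by rw [e1, hb, e3]; ring)
  have b0 : 0 < b := Nat.pos_of_ne_zero fun e => by rw [e, cN] at hb; omega
  obtain ⟨k, hk, ek⟩ := (Nat.dvd_prime_pow Nat.prime_two).1 (cA ▸ Dvd.intro_left _ ha.symm)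
  suffices a = 1 by
    rw [this, mul_one] at ha
    exact (eq_of_le_of_card_ge inf_le_right ha.le).ge.trans (inf_le_left.trans inf_le_left)
  by_cases d : 31 ∣ Nat.card ↥(cj h N ⊓ N)
  · obtain ⟨y, hy, oy⟩ := exists_order (by norm_num) d
    have c1 := (big j (p := 31) (n := 31 * 10) (by decide) oy).1
    have cy : Nat.card (zpowers y) = 31 := by rw [Nat.card_zpowers, oy]
    have n1 : zpowers y ≤ normalizer ((cj h N ⊓ N ⊓ A : Subgroup G) : Set G) :=
      le_normalizer_inf ((zpowers_le.2 hy).trans le_normalizer) (zpowers_le.2 hy.2)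
    have q := card_modEq_of_free n1 bot_le (by rw [normalizer_eq_top]; exact le_top) fun w hw w1 v hv e => by
      have ow : orderOf w = 31 := ((Nat.dvd_prime (by norm_num)).1 (cy ▸ orderOf_dvd_card_of_mem hw)).resolve_left
        (by rwa [orderOf_eq_one_iff])
      have h1 : v ∈ zpowers w := (big j (p := 31) (n := 31 * 10) (by decide) ow).1 ▸ mem_cent.2 e.symm
      have h2 := orderOf_dvd_card_of_mem h1
      have h3 := orderOf_dvd_card_of_mem hv.2
      rw [Nat.card_zpowers, ow] at h2
      rw [cA] at h3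
      exact orderOf_eq_one_iff.1 (Nat.eq_one_of_dvd_coprimes (by norm_num) h2 h3)
    rw [cy, card_bot] at q
    have a33 : a ≤ 33 := by nlinarith
    rw [cA, ek] at ha
    rw [ek] at a33 ⊢
    have k5 : k ≤ 5 := by
      by_contra c
      have := Nat.pow_le_pow_right (show 0 < 2 by norm_num) (show 6 ≤ k by omega)
      omega
    unfold Nat.ModEq at q
    by_contra c
    obtain rfl : k = 5 := by interval_cases k <;> omega
    obtain rfl : b = 1 := by rw [ek] at e4; omega
    have s : cj h N ⊓ N ⊔ A = N := eq_of_le_of_card_ge (sup_le inf_le_right AN) (by rw [hb, mul_one])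
    rcases irr (cj h N ⊓ N ⊓ A) inf_le_right (s.ge.trans (sup_le
      (le_normalizer_inf le_normalizer inf_le_right)
      (cen.trans ((centralizer_le inf_le_right).trans (centralizer_le_normalizer _))))) with e | e
    · rw [e, card_bot] at ha; omega
    · rw [e, cA] at ha; omega
  · have d2 : 31 ∣ a * b := e4 ▸ (Nat.Coprime.dvd_of_dvd_mul_left
      ((Nat.Prime.coprime_iff_not_dvd (by norm_num)).2 d) (by rw [e1, cN]; norm_num))
    have a0 : 0 < a := ek ▸ Nat.pos_of_ne_zero (by positivity)
    have e5 : a * b = 31 := by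
      obtain ⟨c, hc⟩ := d2
      have : 0 < a * b := Nat.mul_pos a0 b0
      omega
    refine ((Nat.dvd_prime (by norm_num)).1 (Dvd.intro _ e5)).resolve_right fun e => ?_
    rcases k with _ | k
    · omega
    · rw [pow_succ] at ek; omega

theorem A_le {M : Subgroup G} (l : normalizer (m0.A : Set G) ≤ M) (c : Nat.card M ≤ 33 * 10239344640) :
    M ≤ normalizer (m0.A : Set G) := by
  have key := fun h hh => A_norm j m0 l c (h := h) hh
  have cA : Nat.card m0.A = 2 ^ 10 := m0.card_A
  have irr := fun W => m0.irred_A (W := W)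
  have cen : centralizer (m0.A : Set G) ≤ m0.A := m0.FA.cent_eq.le
  generalize m0.A = A at *
  have pA : IsPGroup 2 A := IsPGroup.of_card cA
  let B : Subgroup G := ⨆ h : M, cj (h : G) A
  have n1 : ∀ h ∈ M, B ≤ normalizer (cj h A : Set G) := fun h hh => iSup_le fun g => by
    have := cj_mono (g : G) (key ((g : G)⁻¹ * h) (M.mul_mem (M.inv_mem g.2) hh))
    rwa [cj_normalizer, ← cj_mul, mul_inv_cancel_left] at this
  obtain ⟨T, hT⟩ := exists_sylowIn 2 B
  have pB : IsPGroup 2 B := hT.isPGroup.to_le (iSup_le fun g =>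
    hT.le_of_le_normalizer (isPGroup_cj _ pA) (le_iSup (fun h : M => cj (h : G) A) g) (hT.le.trans (n1 g g.2)))
  have n2 : M ≤ normalizer (B : Set G) := le_normalizer_of_forall_cj_le fun g hg => by
    rw [cj_iSup]
    exact iSup_le fun h => by rw [← cj_mul]; exact le_iSup (fun h : M => cj (h : G) A) (⟨g, hg⟩ * h)
  have n3 := n1 1 M.one_mem
  rw [cj_one] at n3
  have e := (irr (A ⊓ centralizer (B : Set G)) inf_le_left (le_normalizer_inf le_rfl
    ((l.trans n2).trans (normalizer_le_normalizer_centralizer B)))).resolve_left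
    (inf_cent_ne_bot pB n3 (by rw [cA]; norm_num))
  have l2 : B ≤ A := (le_centralizer_iff.1 (e.ge.trans inf_le_right)).trans cen
  exact fun h hh => mem_normalizer_of_cj_le ((le_iSup (fun h : M => cj (h : G) A) ⟨h, hh⟩).trans l2)

variable (h29 : Mx G 29) (h37 : Mx G 37) (h43 : Mx G 43)
include h29 h37 h43

theorem coatom_H : IsCoatom m0.H :=
  coatom_of m0.card_H (by rw [j.hc]; norm_num) fun M l n => by
    haveI : Fact (Nat.Prime 3) := ⟨by norm_num⟩
    obtain ⟨R, -, hR, -⟩ := m0.exists_sylow3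
    have RH : (R : Subgroup G) ≤ m0.H := fun g hg => m0.K_le_H ((hR g).1 hg).1
    obtain ⟨-, -, -, a, b⟩ := m0.sylow3 R RH
    obtain ⟨r, hr, e⟩ := sylowIn_index (sylowIn_of_le R (RH.trans l))
    rw [inf_eq_right.2 (a.trans l), b] at e
    rcases of_decide_eq_true (allJ chkH (dvd_J j M)) (m0.card_H ▸ card_dvd_of_le l)
      (div_of (by norm_num) Nat.card_pos hr e).2 (ok_of j (fun _ => h29) (fun _ => h37) (fun _ => h43) n) with e | e
    exacts [e.le, absurd (top_of_card j e) n]

theorem coatom_N3 : IsCoatom m0.N3 :=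
  coatom_of m0.card_N3 (by rw [j.hc]; norm_num) fun M l n => by
    haveI : Fact (Nat.Prime 7) := ⟨by norm_num⟩
    obtain ⟨w, hw, ow⟩ := exists_order (K := m0.N3) (p := 7) (by norm_num) (by rw [m0.card_N3]; norm_num)
    obtain ⟨-, -, -, b, a⟩ := m0.seven_main hw ow
    obtain ⟨r, hr, e⟩ := card_norm_modEq (p := 7) (zpowers_le.2 (l hw)) (by rw [Nat.card_zpowers, ow])
      fun d => m0.not49 (d.trans (card_subgroup_dvd_card M))
    rw [inf_eq_right.2 (a.trans l), b] at e
    rcases of_decide_eq_true (allJ chkN (dvd_J j M)) (m0.card_N3.symm.dvd.trans (card_dvd_of_le l))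
      (div_of (by norm_num) Nat.card_pos hr e).2 (ok_of j (fun _ => h29) (fun _ => h37) (fun _ => h43) n) with e | e
    exacts [e.le, absurd (top_of_card j e) n]

theorem coatom_A : IsCoatom (normalizer (m0.A : Set G)) :=
  coatom_of m0.card_NA (by rw [j.hc]; norm_num) fun M l n => by
    rcases of_decide_eq_true (allJ chkA (dvd_J j M)) (m0.card_NA.symm.dvd.trans (card_dvd_of_le l))
      (ok_of j (fun _ => h29) (fun _ => h37) (fun _ => h43) n) with e | e | e
    exacts [m0.card_NA ▸ card_le_of_le (A_le j m0 l e), (top_of_two j e).elim, absurd (top_of_card j e) n]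

end H74.J4M
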