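import Cfsg.Agent.Lib.J4M.Ar
import Cfsg.Agent.Lib.J4M.Two

/-! The Sylow normalisers for 11, 29, 37 and 43 are maximal, given the tables of overgroups. -/

set_option autoImplicit false
set_option maxRecDepth 100000
set_option linter.unusedSectionVars false
set_option Elab.async false

namespace H74.J4M
open Subgroup H68 H2 H66.J4 H75.J4

variable {G : Type*} [Group G] [Finite G]

theorem zp_le_cent {s w : G} (hw : w ∈ zpowers s) : zpowers s ≤ centralizer {w} :=
  zpowers_le.2 (mem_cent.2 (comm_zpowers hw (mem_cent.2 rfl)).eq.symm)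

theorem norm_four {r : G} (o : orderOf r = 4) : normalizer (zpowers r : Set G) ≤ centralizer {r ^ 2} := fun g hg => by
  obtain ⟨i, hi, e⟩ := exists_pow_of_mem (conj_mem_of_norm hg (mem_zpowers r))
  have r4 : r ^ 4 = 1 := o ▸ pow_orderOf_eq_one r
  have h2 : (g * r * g⁻¹) ^ 2 ≠ 1 := fun a => by
    have := orderOf_dvd_of_pow_eq_one a
    rw [H9.orderOf_conj, o] at this; omega
  refine mem_cent.2 (mul_inv_eq_iff_eq_mul.1 ?_)
  rw [← conj_pow]
  rw [e] at h2 ⊢
  rw [o] at hi
  interval_cases i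
  · simp at h2
  · rw [pow_one]
  · exact absurd (by rw [← pow_mul, r4]) h2
  · rw [← pow_mul, show 3 * 2 = 4 + 2 by rfl, pow_add, r4, one_mul]

/-- an element of order 4 whose square has few centralising elements generates a Sylow subgroup -/
theorem sylow_four {r : G} (o : orderOf r = 4) {D S : Subgroup G} (hr : r ∈ D) (h : D ⊓ centralizer {r ^ 2} ≤ S)
    (h8 : ¬ 8 ∣ Nat.card S) : SylowIn 2 (zpowers r) D :=
  sylowIn_of_sylowIn_normalizer (sylowIn_of_card (k := 2) (le_inf (zpowers_le.2 hr) le_normalizer)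
    (by rw [Nat.card_zpowers, o]; rfl) fun d =>
      h8 (d.trans (card_dvd_of_le ((inf_le_inf_left D (norm_four o)).trans h))))

theorem not_dvd_of_sylowIn {p k : ℕ} [hp : Fact p.Prime] {P M : Subgroup G} (h : SylowIn p P M)
    (c : Nat.card P = p ^ k) : ¬ p ^ (k + 1) ∣ Nat.card M := fun d => h.not_dvd_relIndex (by
  rw [← H1.card_mul_relIndex_of_le h.le, c, pow_succ] at d
  exact Nat.dvd_of_mul_dvd_mul_left (pow_pos hp.out.pos k) d)

/-- the invariant Sylow subgroups under a cyclic Sylow subgroup of order 4 -/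
theorem part_four {r : G} (o : orderOf r = 4) {D : Subgroup G} (h : SylowIn 2 (zpowers r) D)
    (hN : D ⊓ centralizer {r ^ 2} ≤ centralizer {r}) (q : ℕ) [hq : Fact q.Prime] (q2 : q ≠ 2) :
    ∃ Q, SylowIn q Q D ∧ r ∈ normalizer (Q : Set G) ∧
      Nat.card Q ≡ Nat.card ↥(Q ⊓ centralizer {r ^ 2}) [MOD 4] := by
  have c : Nat.card (zpowers r) = 4 := by rw [Nat.card_zpowers, o]
  obtain ⟨K, hK, hn, e, nd⟩ := burn h (cent_zp r ▸ (inf_le_inf_left D (norm_four o)).trans hN)
  obtain ⟨Q, hQ, hA⟩ := exists_invariant_sylowIn (h.le.trans hn) (by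
    rw [c]; exact Nat.Coprime.pow_left 2 ((Nat.Prime.coprime_iff_not_dvd Nat.prime_two).2 nd)) (Or.inl inferInstance) q
  refine ⟨Q, sylowIn_of_not_dvd_relIndex hQ.isPGroup (hQ.le.trans hK) fun d => ?_, hA (mem_zpowers r), ?_⟩
  · have e2 := H1.card_mul_relIndex_of_le hK
    rw [← relIndex_mul_relIndex _ _ _ hQ.le hK, Nat.eq_of_mul_eq_mul_left Nat.card_pos (e2.trans e.symm), c] at d
    rcases (Nat.Prime.dvd_mul hq.out).1 d with a | a
    · exact hQ.not_dvd_relIndex a
    · exact q2 ((Nat.prime_dvd_prime_iff_eq hq.out Nat.prime_two).1 (hq.out.dvd_of_dvd_pow (n := 2) a))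
  · rw [← c]
    refine card_modEq_of_free hA inf_le_left (le_normalizer_inf hA
      ((zp_le_cent (pow_mem (mem_zpowers r) 2)).trans le_normalizer)) fun a ha a1 y hy e => ⟨hy, mem_cent.2 ?_⟩
    obtain ⟨i, hi, rfl⟩ := exists_pow_of_mem ha
    have r4 : r ^ 4 = 1 := o ▸ pow_orderOf_eq_one r
    rw [o] at hi
    interval_cases i
    · simp at a1
    · exact (Commute.pow_left (by rwa [pow_one] at e : Commute r y) 2).eq.symm
    · exact e.symm
    · have := (Commute.pow_left (e : Commute (r ^ 3) y) 2).eq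
      rw [← pow_mul, show 3 * 2 = 4 + 2 by rfl, pow_add, r4, one_mul] at this
      exact this.symm

theorem chk29 : allD (fun k => decide (29 * 28 ∣ k → k / (29 * 28) % 29 = 1 → BS k 7 28 → OK k false false false →
    k ≤ 29 * 28)) LJ 1 = true := by decide +kernel

theorem chk43 : allD (fun k => decide (43 * 14 ∣ k → k / (43 * 14) % 43 = 1 → BS k 7 14 → OK k false false false →
    k ≤ 43 * 14)) LJ 1 = true := by decide +kernel

theorem chk37a : allD (fun k => decide (19092 ∣ k → k / 444 % 37 = 1 → OK k true false true →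
    k = 86775571046077562880)) LJ 1 = true := by decide +kernel

theorem chk37b : allD (fun k => decide (444 ∣ k → k / 444 % 37 = 1 → ¬ 9 ∣ k →
    (∃ c ∈ [12, 60, 84, 420], BS k 3 c) → OK k true false true → OK (k / 3) true false true →
    k = 444 ∨ k = 49728)) LJ 1 = true := by decide +kernel

theorem chk37c : allD (fun k => decide (3996 ∣ k → k / 444 % 37 = 1 → k / 108 % 3 = 1 → OK k true false true →
    k = 279720)) LJ 1 = true := by decide +kernel

theorem chk37d : allD (fun c => decide (c ∣ 21799895040 → 12 ∣ c → ¬ 8 ∣ c → ¬ 9 ∣ c → ¬ 11 ∣ c →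
    c ∈ [12, 60, 84, 420])) LJ 1 = true := by decide +kernel

theorem chk11 : allD (fun k => decide (319440 ∣ k → k / 319440 % 1331 = 1 → OK k true true true →
    k = 319440 ∨ k = 219815608320 ∨ k = 86775571046077562880)) LJ 1 = true := by decide +kernel

variable [IsSimpleGroup G] {m : Md G} {x : G} {U : Subgroup G} (j : J11 m x U)
include j

omit j in
theorem card_norm_7 (m : Md G) {w : G} (o : orderOf w = 7) : Nat.card (normalizer (zpowers w : Set G)) = 2520 := by
  obtain ⟨m', h⟩ := m.exists_map7 o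
  exact (m'.seven_main h o).2.2.2.1

omit j in
theorem card_norm_5 (m : Md G) {w : G} (o : orderOf w = 5) : Nat.card (normalizer (zpowers w : Set G)) = 26880 := by
  obtain ⟨f, k, h5⟩ := m.exists_five
  rw [(card_prime_eq (by norm_num) m.not25 o (k.order5 h5)).2, k.card_norm5 h5]

theorem index_big {p n : ℕ} (hp : (p, n) ∈ [(23, 23 * 22), (29, 29 * 28), (31, 31 * 10), (37, 37 * 12), (43, 43 * 14)])
    {y : G} (oy : orderOf y = p) {M : Subgroup G} (l : normalizer (zpowers y : Set G) ≤ M) :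
    n ∣ Nat.card M ∧ Nat.card M / n % p = 1 := by
  obtain ⟨pp, p2⟩ := (by decide +kernel : ∀ q ∈ [(23, 23 * 22), (29, 29 * 28), (31, 31 * 10), (37, 37 * 12),
    (43, 43 * 14)], q.1.Prime ∧ ¬ q.1 ^ 2 ∣ 86775571046077562880) _ hp
  have := Fact.mk pp
  obtain ⟨r, hr, e⟩ := card_norm_modEq (p := p) (le_normalizer.trans l) (by rw [Nat.card_zpowers, oy])
    fun a => p2 (a.trans (dvd_J j M))
  rw [inf_eq_right.2 l, (big j hp oy).2] at e
  exact div_of pp.one_lt Nat.card_pos hr e

theorem mx_seven {p em : ℕ} (hp : (p, p * em) ∈ [(23, 23 * 22), (29, 29 * 28), (31, 31 * 10), (37, 37 * 12), (43, 43 * 14)])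
    (chk : allD (fun k => decide (p * em ∣ k → k / (p * em) % p = 1 → BS k 7 em → OK k false false false →
      k ≤ p * em)) LJ 1 = true) {y s w : G} (oy : orderOf y = p) (os : orderOf s = em)
    (hs : s ∈ normalizer (zpowers y : Set G)) (hw : w ∈ zpowers s) (ow : orderOf w = 7)
    (tab : ∀ M : Subgroup G, y ∈ M → s ∈ M → M ⊓ normalizer (zpowers w : Set G) ≤ zpowers s ∨ M = ⊤) : Mx G p := by
  obtain ⟨pp, p2, p3⟩ := (by decide +kernel : ∀ q ∈ [(23, 23 * 22), (29, 29 * 28), (31, 31 * 10), (37, 37 * 12),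
    (43, 43 * 14)], q.1.Prime ∧ ¬ q.1 ^ 2 ∣ 86775571046077562880 ∧ q.2 ≠ 86775571046077562880) _ hp
  haveI : Fact (Nat.Prime 7) := ⟨by norm_num⟩
  refine mx_of pp (j.hc ▸ p2) oy (coatom_of (big j hp oy).2 (j.hc ▸ p3) fun M l n => ?_)
  have h := (tab M (l (le_normalizer (mem_zpowers y))) (l hs)).resolve_right n
  have b := (bs_of j.hc ow (zpowers_le.2 (l hs) hw) (fun d => m.not49 (d.trans (card_subgroup_dvd_card M)))
    (h.trans (zp_le_cent hw))).1
  rw [le_antisymm ((inf_le_inf_left M (cent_le_norm w)).trans h) (le_inf (zpowers_le.2 (l hs)) (zp_le_cent hw)),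
    Nat.card_zpowers, os] at b
  obtain ⟨a1, a2⟩ := index_big j hp oy l
  exact of_decide_eq_true (allJ chk (dvd_J j M)) a1 a2 b
    (ok_of j (fun h => absurd h (by decide)) (fun h => absurd h (by decide)) (fun h => absurd h (by decide)) n)

theorem seven_three {K : Subgroup G} (a : 7 ∣ Nat.card K) (b : ¬ 3 ∣ Nat.card K) (c : 37 ∣ Nat.card K) : False := by
  haveI : Fact (Nat.Prime 7) := ⟨by norm_num⟩
  obtain ⟨w, hw, ow⟩ := exists_order (by norm_num) a
  have h := (bs_of j.hc ow hw (fun d => m.not49 (d.trans (card_subgroup_dvd_card K))) fun g hg =>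
    mem_of_card (cent_le_norm w) (cent_zp w ▸ normalizer_le_normalizer_centralizer _) (a := 3)
      (by rw [card_norm_7 m ow, card_cent_7 m ow]) hg.2 (((Nat.Prime.coprime_iff_not_dvd Nat.prime_three).2
        fun d => b (d.trans (orderOf_dvd_card_of_mem hg.1))).symm)).1 (37, 1) (by decide) (by decide)
  have d := card_cent_7 m ow ▸ card_dvd_of_le (inf_le_right : K ⊓ centralizer {w} ≤ _)
  simp only [pow_one] at h
  rw [Nat.gcd_eq_right c, Nat.Coprime.gcd_eq_one (Nat.Coprime.coprime_dvd_left d (by norm_num))] at h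
  omega

omit j in
theorem card_4608 (m : Md G) {w t c : G} (ow : orderOf w = 3) (ot : orderOf t = 2) (e : t * w = w * t)
    (hc : c * w = w * c) (n : c * t ≠ t * c) :
    Nat.card ↥(normalizer (zpowers w : Set G) ⊓ centralizer {t}) ≤ 4608 := by
  obtain ⟨g, hg⟩ := isConj_iff.1 (m.conj_three ow).symm
  have z : ∀ a : G, cj g (zpowers a) = zpowers (g * a * g⁻¹) := fun a => MonoidHom.map_zpowers _ _
  rw [← card_cj g, cj_inf, cj_normalizer, ← cent_zp t, cj_centralizer, z, z, hg, cent_zp]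
  have k : ∀ a : G, a * w = w * a → g * a * g⁻¹ ∈ m.K0 := fun a h => by
    have : g * a * g⁻¹ ∈ centralizer {m.ω} := mem_cent.2 (by rw [← hg, conj_mul, conj_mul, h])
    exact ⟨m.cent_ω_le this, this⟩
  have kt := k t e
  have kc := k c hc
  have n' : g * c * g⁻¹ * (g * t * g⁻¹) ≠ g * t * g⁻¹ * (g * c * g⁻¹) := fun a => n (by
    rw [conj_mul, conj_mul] at a; exact mul_left_cancel (mul_right_cancel a))
  have t2 : (g * t * g⁻¹) ^ 2 = 1 := by rw [conj_pow, ← ot, pow_orderOf_eq_one]; simp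
  generalize g * t * g⁻¹ = t' at *
  generalize g * c * g⁻¹ = c' at *
  have o2 : orderOf (m.π t') = 2 := orderOf_eq_prime (by rw [← m.π_pow kt.1, t2, m.π_one]) fun a => by
    obtain ⟨i, k, rfl⟩ := m.K_ker (m.K0_le kt) a
    exact n' ((Commute.pow_right (mem_cent.1 kc.2) i).mul_right (Commute.pow_right (m.mem_H.1 kc.1) k))
  obtain ⟨q, hq, h1, -, a, ha, h2⟩ := H96.Geo.M22.table.data (m.mem_K0.1 kt).2
  have c384 : Nat.card ↥(Cfsg.Spor.M22 ⊓ centralizer {m.π t'}) = 384 := by
    have h3 := H96.Geo.M22.table.cent q hq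
    rw [(by decide +kernel : ∀ q ∈ H96.Geo.M22.cls, 2 = q.o → q.z = 384) q hq (o2 ▸ h1), ← card_cj a, cj_inf,
      cj_eq_of_mem ha, ← cent_zp, cj_centralizer, cj, MonoidHom.map_zpowers, cent_zp] at h3
    rw [← h2]; exact h3
  have h4 := relIndex_M22 (J := H15.M22ext ⊓ centralizer {m.π t'}) inf_le_left
  rw [inf_right_comm, inf_eq_right.2 H15.M22_le_ext, c384] at h4
  have h5 := m.card_K_pre (J := H15.M22ext ⊓ centralizer {m.π t'}) inf_le_left
  refine (card_le_of_le fun b hb => ?_).trans (h5.le.trans (by omega))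
  have hK := m.norm_P hb.1
  refine ⟨hK, m.mem_pre.2 ⟨m.K_le_H hK, m.π_mem' (m.K_le_H hK), mem_cent.2 ?_⟩⟩
  rw [← m.π_mul' (m.K_le_H hK) kt.1, ← m.π_mul' kt.1 (m.K_le_H hK), mem_cent.1 hb.2]

variable (h29 : Mx G 29) (h43 : Mx G 43)
include h29 h43

theorem mx37 {y s : G} (oy : orderOf y = 37) (os : orderOf s = 12) (hs : s ∈ normalizer (zpowers y : Set G))
    (tab : ∀ M : Subgroup G, y ∈ M → s ∈ M →
      M ⊓ (normalizer (zpowers (s ^ 4) : Set G) ⊓ centralizer {s ^ 6}) ≤ zpowers s ∨ 43 ∣ Nat.card M) : Mx G 37 := by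
  haveI : Fact (Nat.Prime 3) := ⟨by norm_num⟩
  have hp : (37, 37 * 12) ∈ [(23, 23 * 22), (29, 29 * 28), (31, 31 * 10), (37, 37 * 12), (43, 43 * 14)] := by decide
  refine mx_of (by norm_num) (by rw [j.hc]; norm_num) oy
    (coatom_of (big j hp oy).2 (by rw [j.hc]; norm_num) fun M l n => ?_)
  have ok : ∀ K, K ≤ M → OK (Nat.card K) true false true := fun K hK =>
    ok_of j (fun _ => h29) (fun h => absurd h (by decide)) (fun _ => h43) fun e => n (top_le_iff.1 (e ▸ hK))
  obtain ⟨a1, a2⟩ := index_big j hp oy l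
  have sM := l hs
  rcases tab M (l (le_normalizer (mem_zpowers y))) sM with h | h
  swap
  · exact absurd (top_of_card j (of_decide_eq_true (allJ chk37a (dvd_J j M))
      (Nat.Coprime.mul_dvd_of_dvd_of_dvd (by norm_num) a1 h) a2 (ok M le_rfl))) n
  have cs : Nat.card (zpowers s) = 12 := by rw [Nat.card_zpowers, os]
  have ow : orderOf (s ^ 4) = 3 := by rw [orderOf_pow' _ (by norm_num), os]; rfl
  have or : orderOf (s ^ 3) = 4 := by rw [orderOf_pow' _ (by norm_num), os]; rfl
  have cw : Nat.card (zpowers (s ^ 4)) = 3 ^ 1 := by rw [Nat.card_zpowers, ow]; rfl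
  have cr : Nat.card (zpowers (s ^ 3)) = 2 ^ 2 := by rw [Nat.card_zpowers, or]; rfl
  rw [show s ^ 6 = (s ^ 3) ^ 2 by rw [← pow_mul]] at h
  have ws : s ^ 4 ∈ zpowers s := pow_mem (mem_zpowers s) 4
  have rs : s ^ 3 ∈ zpowers s := pow_mem (mem_zpowers s) 3
  have sw := zp_le_cent ws
  have st := zp_le_cent (pow_mem rs 2)
  have sr := zp_le_cent rs
  have SM := zpowers_le.2 sM
  generalize s ^ 4 = w at *
  generalize s ^ 3 = r at *
  generalize zpowers s = S at *
  rw [← inf_assoc] at h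
  have SD : S ≤ M ⊓ normalizer (zpowers w : Set G) := le_inf SM (sw.trans (cent_le_norm w))
  have s2 := sylow_four or (SD rs) h (by rw [cs]; norm_num)
  have n8 := not_dvd_of_sylowIn s2 cr
  have DC : M ⊓ normalizer (zpowers w : Set G) ≤ centralizer {w} := by
    obtain ⟨k, hk, e⟩ := norm_cent Nat.prime_three ow
    have e1 := H1.card_mul_relIndex_of_le (cent_le_norm w)
    have i1 := relIndex_le_of_le_right (H := centralizer {w})
      (inf_le_right : M ⊓ normalizer (zpowers w : Set G) ≤ _) index_ne_zero_of_finite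
    rw [Nat.eq_of_mul_eq_mul_left Nat.card_pos (e1.trans e)] at i1
    have e2 := H1.card_inf_mul_relIndex (centralizer {w}) (M ⊓ normalizer (zpowers w : Set G))
    obtain ⟨a, ha⟩ := cs ▸ card_dvd_of_le (le_inf sw SD)
    have k2 : k ≤ 2 := Nat.le_of_dvd (by norm_num) hk
    have i0 : (centralizer {w}).relIndex (M ⊓ normalizer (zpowers w : Set G)) ≠ 0 := index_ne_zero_of_finite
    refine relIndex_eq_one.1 (by_contra fun c => n8 ?_)
    rw [← e2, ha, show (centralizer {w}).relIndex (M ⊓ normalizer (zpowers w : Set G)) = 2 by omega]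
    exact Dvd.intro (3 * a) (by ring)
  have dD : Nat.card ↥(M ⊓ normalizer (zpowers w : Set G)) ∣ 21799895040 := (card_dvd_of_le DC).trans (card_cent_3 m ow)
  obtain ⟨Q, hQ, rQ, cQ⟩ := part_four or s2 (h.trans sr) 3 (by norm_num)
  have wQ : zpowers w ≤ Q := hQ.le_of_le_normalizer (IsPGroup.of_card cw) (zpowers_le.2 (SD ws))
    (hQ.le.trans inf_le_right)
  have gQ := sylowIn_gcd (E := 3) hQ fun d => absurd (d.trans dD) (by norm_num)
  have q27 : Nat.card Q ∣ 27 := gQ ▸ Nat.gcd_dvd_right _ _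
  have eQ : Q ⊓ centralizer {r ^ 2} = zpowers w := (eq_of_le_of_card_ge (le_inf wQ (zpowers_le.2 (st ws))) (by
    rw [cw]
    exact Nat.le_of_dvd (by norm_num) (Nat.dvd_gcd ((card_dvd_of_le inf_le_left).trans q27)
      (cs ▸ card_dvd_of_le ((inf_le_inf_right _ hQ.le).trans h))))).symm
  rw [eQ, cw] at cQ
  obtain ⟨i, hi, ei⟩ := (Nat.dvd_prime_pow (m := 3) Nat.prime_three).1 q27
  have c3 : Nat.card Q = 3 ^ 1 ∨ Nat.card Q = 3 ^ 3 := by
    rw [ei] at cQ ⊢
    unfold Nat.ModEq at cQ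
    interval_cases i <;> omega
  rcases c3 with c3 | c3
  · have s3 : SylowIn 3 (zpowers w) M :=
      sylowIn_of_sylowIn_normalizer (eq_of_le_of_card_ge wQ (by rw [c3, cw]) ▸ hQ)
    have n9 := not_dvd_of_sylowIn s3 cw
    obtain ⟨b, K, hK, eK⟩ := bs_of j.hc ow (SM ws) n9 DC
    obtain ⟨P, hP, -, cP⟩ := part_four or s2 (h.trans sr) 11 (by norm_num)
    have gP := sylowIn_gcd (E := 1) hP fun d => absurd (d.trans dD) (by norm_num)
    have n11 : ¬ 11 ∣ Nat.card ↥(M ⊓ normalizer (zpowers w : Set G)) := fun d => by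
      rw [pow_one, Nat.gcd_eq_right d] at gP
      rw [gP, Nat.eq_one_of_dvd_coprimes (a := 11) (b := 12) (k := Nat.card ↥(P ⊓ centralizer {r ^ 2})) (by norm_num)
        (gP ▸ card_dvd_of_le inf_le_left) (cs ▸ card_dvd_of_le ((inf_le_inf_right _ hP.le).trans h))] at cP
      exact absurd cP (by decide)
    rw [le_antisymm (inf_le_inf_left M (cent_le_norm w)) (le_inf inf_le_left DC)] at b
    have e3 : Nat.card M / 3 = Nat.card K := by rw [← eK, Nat.mul_div_cancel _ (by norm_num)]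
    rcases of_decide_eq_true (allJ chk37b (dvd_J j M)) a1 a2 n9 ⟨_, of_decide_eq_true (allJ chk37d (dvd_J j _)) dD
      (cs ▸ card_dvd_of_le SD) n8 (fun d => n9 (d.trans (card_dvd_of_le inf_le_left))) n11, b⟩ (ok M le_rfl)
      (e3 ▸ ok K hK) with e | e
    · exact e.le
    · have : Nat.card K = 16576 := by omega
      exact (seven_three j (K := K) (by rw [this]; norm_num) (by rw [this]; norm_num) (by rw [this]; norm_num)).elim
  · have QM := hQ.le.trans inf_le_left
    have s3 : SylowIn 3 Q M := sylowIn_of_card QM c3 fun d => absurd (d.trans (dvd_J j M)) (by norm_num)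
    obtain ⟨a, ha, e⟩ := sylowIn_index s3
    have cN : Nat.card (normalizer (Q : Set G)) = 864 := by
      obtain ⟨R, -, -, cR⟩ := m.exists_sylow3
      obtain ⟨g, -, eg⟩ := (sylowIn_top R).exists_cj_eq (sylowIn_of_card le_top c3 (by rw [card_top, j.hc]; norm_num))
      rw [← eg, ← cj_normalizer, card_cj, cR]
    have s4 := sylow_four or (D := M ⊓ normalizer (Q : Set G)) (S := S) ⟨SM rs, rQ⟩ (fun g hg => h ⟨⟨hg.1.1,
      eQ ▸ inf_normalizer_le_normalizer_inf ⟨hg.1.2, le_normalizer hg.2⟩⟩, hg.2⟩) (by rw [cs]; norm_num)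
    have c108 : Nat.card ↥(M ⊓ normalizer (Q : Set G)) = 108 := by
      have d1 := Nat.Coprime.mul_dvd_of_dvd_of_dvd (by norm_num) (cr ▸ card_dvd_of_le s4.le)
        (c3 ▸ card_dvd_of_le (le_inf QM le_normalizer : Q ≤ M ⊓ normalizer (Q : Set G)))
      have d2 := cN ▸ card_dvd_of_le (inf_le_right : M ⊓ normalizer (Q : Set G) ≤ _)
      have d3 := not_dvd_of_sylowIn s4 cr
      exact (by decide +kernel : ∀ c ∈ Nat.divisors 864, 2 ^ 2 * 3 ^ 3 ∣ c → ¬ 2 ^ (2 + 1) ∣ c → c = 108) _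
        (Nat.mem_divisors.2 ⟨d2, by norm_num⟩) d1 d3
    rw [c108] at e
    obtain ⟨b1, b2⟩ := div_of (by norm_num) Nat.card_pos ha e
    have ek := of_decide_eq_true (allJ chk37c (dvd_J j M)) (Nat.lcm_dvd a1 b1) a2 b2 (ok M le_rfl)
    have h' : M ⊓ centralizer {r ^ 2} ⊓ normalizer (zpowers w : Set G) ≤ S := (inf_right_comm _ _ _).le.trans h
    have SC : S ≤ M ⊓ centralizer {r ^ 2} := le_inf SM st
    have s5 : SylowIn 3 (zpowers w) (M ⊓ centralizer {r ^ 2}) := sylowIn_of_sylowIn_normalizer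
      (sylowIn_of_card (le_inf (zpowers_le.2 (SC ws)) le_normalizer) cw fun d =>
        absurd (cs ▸ d.trans (card_dvd_of_le h')) (by norm_num))
    have b := (bs_of j.hc ow (SC ws) (not_dvd_of_sylowIn s5 cw) (h'.trans sw)).1 (2, 21) (by decide) (by decide)
    rw [le_antisymm ((inf_le_inf_left _ (cent_le_norm w)).trans h') (le_inf SC sw), cs] at b
    have d8 : 2 ^ (2 + 1) ∣ Nat.card ↥(M ⊓ centralizer {r ^ 2}) := by
      by_contra c
      have := sylowIn_of_sylowIn_normalizer ((sylowIn_of_card (zpowers_le.2 (SC rs)) cr c).mono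
        (le_inf (zpowers_le.2 (SM rs)) le_normalizer) (inf_le_inf_left M (norm_four or)))
      exact not_dvd_of_sylowIn this cr (by rw [ek]; norm_num)
    have d9 := ek ▸ card_dvd_of_le (inf_le_left : M ⊓ centralizer {r ^ 2} ≤ M)
    have g8 : Nat.gcd (Nat.card ↥(M ⊓ centralizer {r ^ 2})) (2 ^ 21) = 8 :=
      Nat.dvd_antisymm (Nat.gcd_dvd_gcd_of_dvd_left _ d9) (Nat.dvd_gcd d8 (by norm_num))
    simp only [g8] at b
    exact absurd b (by decide)

theorem coatom_U (h37 : Mx G 37) {f : G} (o : orderOf f = 5) (hf : f ∈ normalizer (U : Set G))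
    (tab : ∀ M : Subgroup G, normalizer (U : Set G) ≤ M →
      M ⊓ normalizer (zpowers f : Set G) ≤ centralizer {f} ∨ ¬ Nat.card M ∣ 219815608320) :
    IsCoatom (normalizer (U : Set G)) := by
  haveI : Fact (Nat.Prime 5) := ⟨by norm_num⟩
  have cN := card_norm_U j.h j.h11 j.o j.hc j.hP
  obtain ⟨cU, eU⟩ := U_main j.h j.h11 j.o j.hc
  refine coatom_of cN (by rw [j.hc]; norm_num) fun M l n => ?_
  obtain ⟨r, hr, e⟩ := ti_count l le_normalizer fun g _ p hp p1 h => ti j hp p1
    (mem_of_card le_normalizer le_rfl (a := 240) (by rw [cN, cU]; rfl) h (by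
      rw [H9.orderOf_conj, orderOf_eq_prime (eU p hp) p1]; norm_num))
  rw [cN] at e
  rw [cU] at hr
  obtain ⟨a1, a2⟩ := div_of (by norm_num) Nat.card_pos hr e
  rcases of_decide_eq_true (allJ chk11 (dvd_J j M)) a1 a2
    (ok_of j (fun _ => h29) (fun _ => h37) (fun _ => h43) n) with e | e | e
  · exact e.le
  · have b := (bs_of j.hc o (l hf) (fun d => m.not25 (d.trans (card_subgroup_dvd_card M)))
      ((tab M l).resolve_right fun a => a e.dvd)).1 (3, 3) (by decide) (by decide)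
    have d := Nat.gcd_dvd_gcd_of_dvd_left (3 ^ 3)
      (card_cent_5 m o ▸ card_dvd_of_le (inf_le_right : M ⊓ centralizer {f} ≤ _))
    rw [e] at b
    rcases (Nat.dvd_prime Nat.prime_three).1 d with a | a <;> simp only [a] at b <;> exact absurd b (by decide)
  · exact absurd (top_of_card j e) n

end H74.J4M
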