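import Cfsg.Agent.Lib.J4.PBig
import Cfsg.Agent.Lib.Core.CoprimeSylow
import Cfsg.Agent.Lib.CGT.Rep

/-! General lemmas for maximality proofs by counting: Sylow indices, Burnside's normal complement with the
congruences for the Sylow orders, enumeration of divisors, and tables of overgroups. -/

set_option autoImplicit false

namespace H74.J4M
open Subgroup H68 H2

section Grp
variable {G : Type*} [Group G] [Finite G]

theorem sylowIn_index {p : ℕ} [Fact p.Prime] {P M : Subgroup G} (h : SylowIn p P M) :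
    ∃ r, r ≡ 1 [MOD p] ∧ Nat.card M = r * Nat.card ↥(M ⊓ normalizer (P : Set G)) := by
  refine ⟨_, card_sylow_modEq_one p M, ?_⟩
  rw [h.toSylow.card_eq_index_normalizer, ← (normalizer (h.toSylow : Set M)).index_mul_card, ← Sylow.coe_coe,
    h.coe_toSylow, ← subgroupOf_normalizer_eq h.le, ← inf_subgroupOf_left]
  congr 1
  exact Nat.card_congr (subgroupOfEquivOfLe inf_le_left).toEquiv

theorem sylowIn_gcd {q E : ℕ} [hq : Fact q.Prime] {Q K : Subgroup G} (h : SylowIn q Q K)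
    (hE : ¬ q ^ (E + 1) ∣ Nat.card K) : Nat.card Q = Nat.gcd (Nat.card K) (q ^ E) := by
  obtain ⟨a, ha⟩ := h.isPGroup.exists_card_eq
  have e := H1.card_mul_relIndex_of_le h.le
  have aE : a ≤ E := by
    by_contra c
    exact hE ((pow_dvd_pow q (by omega)).trans (ha ▸ card_dvd_of_le h.le))
  obtain ⟨b, rfl⟩ := Nat.exists_eq_add_of_le aE
  rw [← e, ha, pow_add, Nat.gcd_mul_left,
    Nat.Coprime.gcd_eq_one (((Nat.Prime.coprime_iff_not_dvd hq.out).2 h.not_dvd_relIndex).symm.pow_right b), mul_one]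

theorem sylowIn_of_card {p k : ℕ} [Fact p.Prime] {P M : Subgroup G} (hP : P ≤ M) (c : Nat.card P = p ^ k)
    (h : ¬ p ^ (k + 1) ∣ Nat.card M) : SylowIn p P M :=
  sylowIn_of_not_dvd_relIndex (IsPGroup.of_card c) hP fun d => h (by
    rw [← H1.card_mul_relIndex_of_le hP, c, pow_succ]; exact Nat.mul_dvd_mul_left _ d)

/-- Burnside's normal complement -/
theorem burn {p : ℕ} [Fact p.Prime] {P M : Subgroup G} (h : SylowIn p P M)
    (hN : M ⊓ normalizer (P : Set G) ≤ centralizer (P : Set G)) :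
    ∃ K, K ≤ M ∧ M ≤ normalizer (K : Set G) ∧ Nat.card K * Nat.card P = Nat.card M ∧ ¬ p ∣ Nat.card K := by
  have hP : normalizer ((h.toSylow : Subgroup M) : Set M) ≤ centralizer ((h.toSylow : Subgroup M) : Set M) := by
    intro g hg x hx
    rw [h.coe_toSylow, ← subgroupOf_normalizer_eq h.le] at hg
    exact Subtype.ext (hN ⟨g.2, hg⟩ x hx)
  obtain ⟨N, nN, hc⟩ : ∃ N : Subgroup M, N.Normal ∧ IsComplement' N (h.toSylow : Subgroup M) :=
    ⟨_, MonoidHom.normal_ker _, MonoidHom.ker_transferSylow_isComplement' h.toSylow hP⟩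
  have e1 : Nat.card (N.map M.subtype) * Nat.card P = Nat.card M := by
    rw [card_map_of_injective M.subtype_injective, ← hc.card_mul_card]
    congr 1
    exact (Nat.card_congr (subgroupOfEquivOfLe h.le).toEquiv).symm
  refine ⟨_, map_subtype_le _, le_normalizer_of_forall_cj_le fun g hg => cj_le_iff'.2 ?_, e1, fun d => ?_⟩
  · rintro _ ⟨k, hk, rfl⟩
    exact ⟨⟨g, hg⟩ * k * ⟨g, hg⟩⁻¹, nN.conj_mem k hk _, rfl⟩
  · apply h.not_dvd_relIndex
    have e := H1.card_mul_relIndex_of_le h.le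
    rw [← e, mul_comm] at e1
    rwa [Nat.eq_of_mul_eq_mul_left Nat.card_pos e1] at d

/-- an action by conjugation that is free outside `F` -/
theorem card_modEq_of_free {A Q F : Subgroup G} (hA : A ≤ normalizer (Q : Set G)) (hF : F ≤ Q)
    (hAF : A ≤ normalizer (F : Set G)) (h : ∀ a ∈ A, a ≠ 1 → ∀ x ∈ Q, a * x = x * a → x ∈ F) :
    Nat.card Q ≡ Nat.card F [MOD Nat.card A] := by
  let X := ↥((Q : Set G) \ F)
  letI : MulAction A X :=
    { smul := fun a x => ⟨a * x * (a : G)⁻¹, conj_mem_of_mem_normalizer (hA a.2) x.2.1,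
        fun c => x.2.2 ((mem_normalizer_iff.1 (hAF a.2) _).2 c)⟩
      one_smul := fun x => Subtype.ext (show ((1 : A) : G) * x * ((1 : A) : G)⁻¹ = x by simp)
      mul_smul := fun a b x => Subtype.ext (show ((a * b : A) : G) * x * ((a * b : A) : G)⁻¹ =
        a * (b * x * (b : G)⁻¹) * (a : G)⁻¹ by simp [mul_assoc]) }
  have e := Nat.card_congr (MulAction.selfEquivOrbitsQuotientProd (G := A) (X := X) fun x => by
    rw [eq_bot_iff]
    intro a ha
    by_contra c
    have : (a : G) * x * (a : G)⁻¹ = x := congrArg Subtype.val ha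
    exact x.2.2 (h a a.2 (fun e => c (Subtype.ext e)) x x.2.1 (mul_inv_eq_iff_eq_mul.1 this)))
  have e2 : Nat.card X + Nat.card F = Nat.card Q := by
    have := Set.ncard_sdiff_add_ncard_of_subset (s := (F : Set G)) (t := Q) hF
    exact this
  rw [← e2, e, Nat.card_prod]
  exact (Nat.modEq_iff_dvd' (Nat.le_add_left _ _)).2 (by rw [Nat.add_sub_cancel]; exact Dvd.intro_left _ rfl) |>.symm

theorem gcd_of_mul {k c q E : ℕ} (h : Nat.Coprime c q) : Nat.gcd (k * c) (q ^ E) = Nat.gcd k (q ^ E) :=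
  Nat.Coprime.gcd_mul_right_cancel k (h.pow_right E)

/-- the congruence for the Sylow orders of a group normalised by an element of prime order -/
theorem part_modEq {p q E : ℕ} [hp : Fact p.Prime] [Fact q.Prime] {K : Subgroup G} {w : G} (o : orderOf w = p)
    (hw : w ∈ normalizer (K : Set G)) (hK : ¬ p ∣ Nat.card K) (hE : ¬ q ^ (E + 1) ∣ Nat.card K) :
    Nat.gcd (Nat.card K) (q ^ E) ≡ Nat.gcd (Nat.card ↥(K ⊓ centralizer {w})) (q ^ E) [MOD p] := by
  have c : Nat.card (zpowers w) = p := by rw [Nat.card_zpowers, o]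
  have hc : (Nat.card (zpowers w)).Coprime (Nat.card K) := c ▸ (Nat.Prime.coprime_iff_not_dvd hp.out).2 hK
  have hs : Group.IsSolvable (zpowers w) ∨ Group.IsSolvable K := Or.inl inferInstance
  obtain ⟨Q, hQ, hA⟩ := exists_invariant_sylowIn (zpowers_le.2 hw) hc hs q
  have h2 := sylowIn_inf_centralizer (zpowers_le.2 hw) hc hs hQ hA
  rw [H75.J4.cent_zp] at h2
  rw [← sylowIn_gcd hQ hE, ← sylowIn_gcd h2 fun d => hE (d.trans (card_dvd_of_le inf_le_left)), ← c]
  refine card_modEq_of_free hA inf_le_left (le_normalizer_inf hA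
    ((zpowers_le.2 (H66.J4.mem_cent.2 rfl)).trans le_normalizer)) fun a ha a1 x hx e => ⟨hx, ?_⟩
  have : zpowers a = zpowers w := by
    refine eq_of_le_of_card_ge (zpowers_le.2 ha) ?_
    rcases (Nat.dvd_prime hp.out).1 (c ▸ card_dvd_of_le (zpowers_le.2 ha)) with e1 | e1
    · rw [Nat.card_zpowers, orderOf_eq_one_iff] at e1; exact absurd e1 a1
    · rw [e1, c]
  rw [← H75.J4.cent_zp, ← this, H75.J4.cent_zp]
  exact H66.J4.mem_cent.2 e.symm

/-- Burnside's theorem for a Sylow subgroup of prime order, with the congruences for the other Sylow orders -/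
theorem burnS {p : ℕ} [hp : Fact p.Prime] {M : Subgroup G} {w : G} (o : orderOf w = p) (hw : w ∈ M)
    (h2 : ¬ p ^ 2 ∣ Nat.card M) (hN : M ⊓ normalizer (zpowers w : Set G) ≤ centralizer {w}) :
    ∃ K, K ≤ M ∧ Nat.card K * p = Nat.card M ∧ ∀ q E : ℕ, q.Prime → q ≠ p → ¬ q ^ (E + 1) ∣ Nat.card M →
      Nat.gcd (Nat.card M) (q ^ E) ≡ Nat.gcd (Nat.card ↥(M ⊓ centralizer {w})) (q ^ E) [MOD p] := by
  have c : Nat.card (zpowers w) = p := by rw [Nat.card_zpowers, o]
  obtain ⟨K, hK, hn, e, nd⟩ := burn (sylowIn_of_card (k := 1) (zpowers_le.2 hw) (by rw [c, pow_one]) h2)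
    (H75.J4.cent_zp w ▸ hN)
  rw [c] at e
  refine ⟨K, hK, e, fun q E hq ne hE => ?_⟩
  have := Fact.mk hq
  have cp : Nat.Coprime p q := (Nat.coprime_primes hp.out hq).2 ne.symm
  have e2 : Nat.card ↥(K ⊓ centralizer {w}) * p = Nat.card ↥(M ⊓ centralizer {w}) := by
    have d : Disjoint K (zpowers w) := disjoint_of_coprime_natCard
      (c ▸ ((Nat.Prime.coprime_iff_not_dvd hp.out).2 nd).symm)
    have s : K ⊔ zpowers w = M := eq_of_le_of_card_ge (sup_le hK (zpowers_le.2 hw)) (by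
      rw [← e, ← c]
      exact Nat.le_of_dvd Nat.card_pos (Nat.Coprime.mul_dvd_of_dvd_of_dvd
        (c ▸ ((Nat.Prime.coprime_iff_not_dvd hp.out).2 nd).symm) (card_dvd_of_le le_sup_left)
        (card_dvd_of_le le_sup_right)))
    have s2 : M ⊓ centralizer {w} = zpowers w ⊔ (centralizer {w} ⊓ K) := by
      rw [← inf_sup_of_le_normalizer ((zpowers_le.2 hw).trans hn) (zpowers_le.2 (H66.J4.mem_cent.2 rfl)),
        sup_comm, s, inf_comm]
    refine le_antisymm (Nat.le_of_dvd Nat.card_pos (Nat.Coprime.mul_dvd_of_dvd_of_dvd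
      (((Nat.Prime.coprime_iff_not_dvd hp.out).2 fun d => nd (d.trans (card_dvd_of_le inf_le_left))).symm)
      (card_dvd_of_le (inf_le_inf_right _ hK))
      (c ▸ card_dvd_of_le (zpowers_le.2 ⟨hw, H66.J4.mem_cent.2 rfl⟩)))) ?_
    rw [s2, ← c, mul_comm, inf_comm]
    exact Nat.le_of_dvd (Nat.mul_pos Nat.card_pos Nat.card_pos) (H1.card_sup_dvd_of_le_normalizer
      (le_normalizer_inf ((zpowers_le.2 hw).trans hn)
        ((zpowers_le.2 (H66.J4.mem_cent.2 rfl)).trans le_normalizer)))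
  rw [← e, ← e2, gcd_of_mul cp, gcd_of_mul cp]
  exact part_modEq o (hn hw) nd fun d => hE (d.trans (card_dvd_of_le hK))

theorem coatom_map {G' : Type*} [Group G'] (e : G ≃* G') {X : Subgroup G} (h : IsCoatom X) :
    IsCoatom (X.map e.toMonoidHom) := (e.mapSubgroup.isCoatom_iff X).2 h

theorem coatom_cj (g : G) {X : Subgroup G} (h : IsCoatom X) : IsCoatom (cj g X) :=
  coatom_map (MulAut.conj g) h

end Grp

open H54

/-! ### divisors -/

/-- `P (a * k)` for all divisors `k` of the product of the prime powers in `L` -/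
noncomputable def allD (P : ℕ → Bool) (L : List (ℕ × ℕ)) : ℕ → Bool :=
  List.rec (motive := fun _ => ℕ → Bool) P
    (fun t _ ih a => allLt (fun i => force (Nat.mul a (Nat.pow t.1 i)) ih) (Nat.succ t.2)) L

theorem allD_spec {P : ℕ → Bool} : ∀ (L : List (ℕ × ℕ)) (a k : ℕ), (∀ t ∈ L, t.1.Prime) →
    k ∣ (L.map fun t => t.1 ^ t.2).prod → allD P L a = true → P (a * k) = true
  | [], a, k, _, d, h => by
    rw [Nat.dvd_one.1 d, mul_one]; exact h
  | t :: L, a, k, hp, d, h => by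
    obtain ⟨b, c, hb, hc, rfl⟩ := (Nat.dvd_mul).1 (show k ∣ t.1 ^ t.2 * (L.map fun t => t.1 ^ t.2).prod from d)
    obtain ⟨i, hi, rfl⟩ := (Nat.dvd_prime_pow (hp t List.mem_cons_self)).1 hb
    rw [← mul_assoc]
    exact allD_spec L _ c (fun s hs => hp s (List.mem_cons_of_mem _ hs)) hc
      ((allLt_iff _ _).1 (show allLt (fun i => allD P L (a * t.1 ^ i)) (Nat.succ t.2) = true from h) i
        (Nat.lt_succ_of_le hi))

/-- the prime factorisation of the order of the fourth Janko group -/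
def LJ : List (ℕ × ℕ) := [(43, 1), (37, 1), (31, 1), (29, 1), (23, 1), (11, 3), (7, 1), (5, 1), (3, 3), (2, 21)]

theorem allJ {P : ℕ → Bool} (h : allD P LJ 1 = true) {k : ℕ} (d : k ∣ 86775571046077562880) : P k = true := by
  have := allD_spec LJ 1 k (by decide +kernel) (by
    rwa [show (LJ.map fun t => t.1 ^ t.2).prod = 86775571046077562880 by decide +kernel]) h
  rwa [one_mul] at this

/-! ### tables of overgroups -/

/-- the image of the point `i` under the word with base-8 digits `w`; the letter 7 is `f` -/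
noncomputable def ap (c : Cfg) (U : List ℕ) (f : ℕ → ℕ) (fuel : ℕ) : ℕ → ℕ → ℕ :=
  Nat.rec (motive := fun _ => ℕ → ℕ → ℕ) (fun _ i => i)
    (fun _ ih w i => force (Nat.land w 7) fun l => force (sel (Nat.beq l 7) (f i) (c.get (nth U l) i)) fun j =>
      force (Nat.shiftRight w 3) fun w' => ih w' j) fuel

variable {G Ω : Type*} [Group G] [MulAction G Ω] {c : Cfg} {pt : ℕ → Ω}

theorem ap_rep {H : Subgroup G} {U : List ℕ} {f : ℕ → ℕ} (hU : ∀ l, l < 7 → In c pt H (nth U l))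
    (hf : ∃ g ∈ H, RepF c pt g f) : ∀ fuel w, ∃ g ∈ H, RepF c pt g (ap c U f fuel w)
  | 0, _ => ⟨1, H.one_mem, repF_one⟩
  | fuel + 1, w => by
    obtain ⟨g, hg, r⟩ := ap_rep hU hf fuel (Nat.shiftRight w 3)
    have : ∃ g' ∈ H, RepF c pt g' fun i => sel (Nat.beq (Nat.land w 7) 7) (f i) (c.get (nth U (Nat.land w 7)) i) := by
      cases e : Nat.beq (Nat.land w 7) 7
      · have h1 : Nat.land w 7 ≤ 7 := Nat.and_le_right
        have h2 := Nat.ne_of_beq_eq_false e
        exact hU _ (by omega)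
      · exact hf
    obtain ⟨g', hg', r'⟩ := this
    exact ⟨g * g', H.mul_mem hg hg', r.mul r'⟩

/-- the entry `j` of the table -/
noncomputable def tabAt (c : Cfg) (U U' T : List ℕ) (i0 : ℕ) (W V : ℕ → ℕ) (j : ℕ) : Bool :=
  force (W j) fun w => force (V j) fun v => band (Nat.beq (ap c U id 16 w i0) j)
    (bor (Nat.beq (ap c U' id 16 v i0) j)
      (force (ap c U' (ap c U id 16 w) 16 v i0) fun k => anyL (Nat.beq k) T))

theorem table [Finite G] (X : Ctx c pt) {Y S S0 M : Subgroup G} {i0 : ℕ} (hi : i0 < c.n) (h0 : S0 ≤ S) (hSY : S ≤ Y)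
    (hSM : S ≤ M) (hc : Nat.card Y ≤ c.n * Nat.card S0) (fix : ∀ s ∈ S0, s • pt i0 = pt i0) {U U' T : List ℕ}
    (hU : ∀ l, l < 7 → In c pt Y (nth U l)) (hU' : ∀ l, l < 7 → In c pt S (nth U' l)) {W V : ℕ → ℕ}
    (chk : ∀ j, j < c.n → tabAt c U U' T i0 W V j = true) :
    M ⊓ Y ≤ S ∨ ∃ k ∈ T, ∀ d ∈ Y, d • pt i0 = pt k → d ∈ M := by
  simp only [tabAt, force_eq, band_eq_true, bor_eq_true, Nat.beq_eq, anyL_iff] at chk
  have one : ∀ H : Subgroup G, ∃ g ∈ H, RepF c pt g id := fun H => ⟨1, H.one_mem, repF_one⟩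
  choose t ht rt using fun j => ap_rep hU (one Y) 16 (W j)
  have tj : ∀ j, j < c.n → t j • pt i0 = pt j := fun j hj => by rw [(rt j i0 hi).2, (chk j hj).1]
  -- the cosets `t j • S0` fill `Y`
  let f : Fin c.n × S0 → Y := fun q => ⟨t q.1 * q.2, Y.mul_mem (ht _) (hSY (h0 q.2.2))⟩
  have fi : Function.Injective f := by
    rintro ⟨a, s⟩ ⟨b, s'⟩ e
    have e' : t a * s = t b * s' := congrArg Subtype.val e
    have : a = b := Fin.ext (X.inj _ _ a.2 b.2 (by
      rw [← tj a a.2, ← tj b b.2, ← fix s s.2, ← mul_smul, e', mul_smul, fix s' s'.2, fix s s.2]))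
    subst this
    exact Prod.ext rfl (Subtype.ext (mul_left_cancel e'))
  have fb := (Nat.bijective_iff_injective_and_card f).2 ⟨fi, le_antisymm (Nat.card_le_card_of_injective f fi)
    (by rwa [Nat.card_prod, Nat.card_fin])⟩
  have cov : ∀ y ∈ Y, ∃ j, j < c.n ∧ y • pt i0 = pt j ∧ (t j)⁻¹ * y ∈ S := fun y hy => by
    obtain ⟨⟨a, s⟩, e⟩ := fb.2 ⟨y, hy⟩
    have e' : t a * s = y := congrArg Subtype.val e
    exact ⟨a, a.2, by rw [← e', mul_smul, fix s s.2, tj a a.2], by rw [← e', inv_mul_cancel_left]; exact h0 s.2⟩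
  have key : ∀ y ∈ Y, ∀ y' ∈ Y, y • pt i0 = y' • pt i0 → y⁻¹ * y' ∈ S := fun y hy y' hy' e => by
    obtain ⟨j, hj, e1, m1⟩ := cov y hy
    obtain ⟨j', hj', e2, m2⟩ := cov y' hy'
    obtain rfl := X.inj _ _ hj hj' (by rw [← e1, ← e2, e])
    have := S.mul_mem (S.inv_mem m1) m2
    simpa [mul_assoc] using this
  by_cases h : M ⊓ Y ≤ S
  · exact Or.inl h
  right
  obtain ⟨g, hg, hn⟩ := SetLike.not_le_iff_exists.1 h
  obtain ⟨j, hj, e1, m1⟩ := cov g hg.2
  rcases (chk j hj).2 with e | ⟨k, hk, e⟩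
  · obtain ⟨s, hs, r⟩ := ap_rep hU' (one S) 16 (V j)
    have := S.mul_mem hs (key s (hSY hs) g hg.2 (by rw [(r i0 hi).2, e, e1]))
    rw [mul_inv_cancel_left] at this
    exact absurd this hn
  · have tM : t j ∈ M := by
      have := M.mul_mem hg.1 (M.inv_mem (hSM m1))
      simpa using this
    obtain ⟨m, hm, r⟩ := ap_rep (H := M ⊓ Y) (fun l hl => (hU' l hl).mono (le_inf hSM hSY))
      ⟨t j, ⟨tM, ht j⟩, rt j⟩ 16 (V j)
    refine ⟨k, hk, fun d hd e' => ?_⟩
    have := M.mul_mem hm.1 (hSM (key m hm.2 d hd (by rw [(r i0 hi).2, e, e'])))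
    rwa [mul_inv_cancel_left] at this

theorem eqns_Gen : True := by
  have := @allD.eq_1
  have := @LJ.eq_1
  have := @ap.eq_1
  have := @tabAt.eq_1
  trivial

end H74.J4M
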