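import Cfsg.Agent.Lib.J4M.Big
import Cfsg.Agent.Lib.J4M.El
import Cfsg.Agent.Lib.J4M.TabD

/-! The Sylow normalisers for 11, 29, 37 and 43 are maximal subgroups of the fourth Janko group. -/

set_option autoImplicit false
set_option maxRecDepth 100000
set_option Elab.async false

namespace H74.J4M
open H54 hiding bnot bnot_eq_true In grp Enum Good c24
open H66.Vec H66.J4 Cfsg Cfsg.Spor H15.Mdl H75.J4 H74.J4C Subgroup

/-- a configuration without networks -/
noncomputable def cfgN (n : ℕ) : Cfg := ⟨n, n, 10, 1023, idN 10 n, onesN 10 n, 0, 0, .nil⟩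

/-- power by repeated squaring -/
noncomputable def bp (o : Ops) (x : ℕ) (L : List ℕ) : ℕ :=
  List.rec (motive := fun _ => ℕ) x
    (fun b _ ih => force ih fun y => force (o.mul y y) fun z => sel (Nat.beq b 0) z (o.mul z x)) L

/-- the exponent -/
def bv : List ℕ → ℕ
  | [] => 1
  | b :: L => 2 * bv L + if b = 0 then 0 else 1

/-- `c` is not the identity and its power is -/
noncomputable def ordP (o : Ops) (L : List ℕ) (c : ℕ) : Bool :=
  force c fun x => band (o.isOne (bp o x L)) (bnot (o.isOne x))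

section
variable {o : Ops} {G : Type*} [Group G] {R : G → ℕ → Prop}

theorem bp_spec (h : Sound o R) {g : G} {c : ℕ} (r : R g c) : ∀ L, R (g ^ bv L) (bp o c L)
  | [] => by rw [bv, pow_one]; exact r
  | b :: L => by
    have a := h.mul (bp_spec h r L) (bp_spec h r L)
    show R _ (sel (Nat.beq b 0) (o.mul (bp o c L) (bp o c L)) (o.mul (o.mul (bp o c L) (bp o c L)) c))
    rw [bv, pow_add, two_mul, pow_add]
    by_cases e : b = 0
    · subst e
      rw [if_pos rfl, pow_zero, mul_one]; exact a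
    · rw [if_neg e, pow_one, beq_false e]; exact h.mul a r

theorem ordP_spec (h : Sound o R) {g : G} {c : ℕ} (r : R g c) {L : List ℕ} (e : ordP o L c = true)
    (hp : (bv L).Prime) : orderOf g = bv L := by
  rw [ordP, force_eq, band_eq_true, bnot_eq_true] at e
  have := Fact.mk hp
  exact orderOf_eq_prime ((h.isOne_iff (bp_spec h r L)).1 e.1) fun a => e.2 ((h.isOne_iff r).2 a)

theorem in_norm [Finite G] (h : Sound o R) {g w : G} {a c : ℕ} (r : R g a) (rw' : R w c) (k : ℕ)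
    (e : o.cj a c (o.pow c k) = true) : g ∈ normalizer (zpowers w : Set G) :=
  H68.mem_normalizer_of_cj_le (by
    rw [H68.cj, MonoidHom.map_zpowers, zpowers_le]
    show g * w * g⁻¹ ∈ _
    exact (mul_inv_eq_iff_eq_mul.2 ((h.cj_iff r rw' (h.pow rw' k)).1 e)).symm ▸ pow_mem (mem_zpowers w) k)

theorem in_cent (h : Sound o R) {g w : G} {a c : ℕ} (r : R g a) (rw' : R w c) (e : o.comm a c = true) :
    g ∈ centralizer {w} := mem_cent.2 ((h.comm_iff r rw').1 e)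

end

theorem smul_pt {g : J4} {a q i k : ℕ} (r : RJ2 g a) (e : Nat.beq (mB 112 1 a (cB 112 q i)) (cB 112 q k) = true) :
    g • vJ (cB 112 q i) = vJ (cB 112 q k) :=
  (r.smul (w := 7) (μ := 1) (s := 1) (by decide) (cB_lt _ _ _)).2.trans (congrArg _ (Nat.eq_of_beq_eq_true e))

/-- a coset representative generates, with `B`, elements of the given orders -/
noncomputable def certAt (q i0 : ℕ) (Yc B : List ℕ) (Ls : List (List ℕ)) (e : ℕ × List ℕ × List (List ℕ)) : Bool :=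
  band (okW 7 e.2.1) (force (oJ.word Yc e.2.1) fun d =>
    band (Nat.beq (mB 112 1 d (cB 112 q i0)) (cB 112 q e.1))
      (allLt (fun i => band (okW (Nat.succ (len B)) (nthW e.2.2 i))
        (ordP oJ (nthW Ls i) (oJ.word (d :: B) (nthW e.2.2 i)))) (len Ls)))

/-- all the checks on permutations -/
noncomputable def tabChk (n q i0 : ℕ) (Yc Sc U X T : List ℕ) (W V : ℕ) : Bool :=
  band (cfgN n).check (band (incB 112 n q) (band (Nat.ble (Nat.succ i0) n)
    (band (band (Nat.beq (len Yc) 7) (Nat.beq (len Sc) 7))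
      (band (allLt (fun l => repB 112 (cfgN n) q (nth Yc l) (nth U l)) 7)
        (band (allLt (fun l => repB 112 (cfgN n) q (nth Sc l) (nth X l)) 7)
          (allLt (tabAt (cfgN n) U X T i0 (cB 48 W) (cB 48 V)) n))))))

theorem tabJ {n q i0 W V : ℕ} {Yc Sc U X B : List ℕ} {C : List (ℕ × List ℕ × List (List ℕ))} {Ls : List (List ℕ)}
    (c1 : tabChk n q i0 Yc Sc U X (C.map (·.1)) W V = true) (c2 : allL (certAt q i0 Yc B Ls) C = true)
    (hp : ∀ i, i < Ls.length → (bv (nthW Ls i)).Prime) {Y S S0 M : Subgroup J4} (h0 : S0 ≤ S) (hSY : S ≤ Y)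
    (hSM : S ≤ M) (hc : Nat.card Y ≤ n * Nat.card S0) (fix : S0 ≤ MulAction.stabilizer J4 (vJ (cB 112 q i0)))
    (hY : AllIn RJ2 Y Yc) (hS : AllIn RJ2 S Sc) (hB : AllIn RJ2 M B) :
    M ⊓ Y ≤ S ∨ ∀ i, i < Ls.length → bv (nthW Ls i) ∣ Nat.card M := by
  simp only [tabChk, band_eq_true, allLt_iff, Nat.ble_eq, Nat.beq_eq, len_eq] at c1
  obtain ⟨a1, a2, a3, ⟨a4, a5⟩, a6, a7, a8⟩ := c1
  have X0 : Ctx (cfgN n) fun j => vJ (cB 112 q j) := ctx_B (n := 112) (by decide) a1 a2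
  have key : ∀ {H : Subgroup J4} {Z U : List ℕ}, AllIn RJ2 H Z → Z.length = 7 →
      (∀ l, l < 7 → repB 112 (cfgN n) q (nth Z l) (nth U l) = true) →
      ∀ l, l < 7 → H54.In (cfgN n) (fun j => vJ (cB 112 q j)) H (nth U l) := fun a b c l hl => by
    obtain ⟨g, hg, r⟩ := a _ (nth_mem _ l (b ▸ hl))
    exact ⟨g, hg, r.rep (w := 7) (μ := 1) (s := 1) (by decide) (c l hl)⟩
  refine (table X0 a3 h0 hSY hSM hc (fun s hs => fix hs) (key hY a4 a6) (key hS a5 a7) a8).imp_right ?_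
  rintro ⟨_, hk, h⟩ i hi
  obtain ⟨e, he, rfl⟩ := List.mem_map.1 hk
  have c := (allL_iff _ _).1 c2 e he
  simp only [certAt, force_eq, band_eq_true, allLt_iff, len_eq] at c
  obtain ⟨d, hd, rd⟩ := In.word sJ hY e.2.1 (a4 ▸ okW_spec c.1)
  obtain ⟨g, hg, rg⟩ := In.word sJ (AllIn.cons ⟨d, h d hd (smul_pt rd c.2.1), rd⟩ hB) _ (okW_spec (c.2.2 i hi).1)
  exact ordP_spec sJ rg (c.2.2 i hi).2 (hp i hi) ▸ orderOf_dvd_card_of_mem hg

/-- the identity -/
noncomputable def k1 : ℕ := oJ.one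

theorem pad (H : Subgroup J4) : In RJ2 H k1 := in_one sJ H

theorem t29 : tabChk 90 q29 i29 [k1, ks29, kf2, kn3, k1, k1, k1] [k1, ks29, k1, k1, k1, k1, k1] U29 X29
    (C29.map (·.1)) W29 V29 = true := by decide +kernel
theorem c29 : allL (certAt q29 i29 [k1, ks29, kf2, kn3, k1, k1, k1] [kx29, ks29] [[1, 0, 1, 0, 0], [1, 1, 0, 1, 0]])
    C29 = true := by decide +kernel
theorem t43 : tabChk 180 q43 i43 [k1, ks29, kf2, kn3, k1, k1, k1] [k1, oJ.pow ks29 2, k1, k1, k1, k1, k1] U43 X43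
    (C43.map (·.1)) W43 V43 = true := by decide +kernel
theorem c43 : allL (certAt q43 i43 [k1, ks29, kf2, kn3, k1, k1, k1] [kx43, oJ.pow ks29 2]
    [[1, 0, 1, 1], [1, 0, 1, 0, 0]]) C43 = true := by decide +kernel
theorem t37 : tabChk 384 q37 i37 [k1, ks37, kk3, kn37, k1, k1, k1] [k1, ks37, k1, k1, k1, k1, k1] U37 X37
    (C37.map (·.1)) W37 V37 = true := by decide +kernel
theorem c37 : allL (certAt q37 i37 [k1, ks37, kk3, kn37, k1, k1, k1] [kx37, ks37] [[1, 1, 0, 1, 0]])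
    C37 = true := by decide +kernel
theorem t11 : tabChk 896 q11 i11 [k1, kf, kn5, kc5a, kc5b, k1, k1] [k1, kf, nth LQ 0, nth LQ 13, nth LQ 16, k1, k1]
    U11 X11 (C11.map (·.1)) W11 V11 = true := by decide +kernel
theorem c11 : allL (certAt q11 i11 [k1, kf, kn5, kc5a, kc5b, k1, k1]
    [oJ.mul (nth LQ 14) (nth LQ 12), ka11, kf, nth LQ 0, nth LQ 13, nth LQ 16] [[1, 1, 0, 1, 0]]) C11 = true := by
  decide +kernel

theorem seven_J : Mx J4 29 ∧ Mx J4 43 := by
  obtain ⟨U, j⟩ := j11_map (MulEquiv.refl J4)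
  obtain ⟨y, -, ry⟩ := i_kx29
  obtain ⟨y', -, ry'⟩ := i_kx43
  obtain ⟨s, -, rs⟩ := i_ks29
  obtain ⟨f, -, rf⟩ := i_kf2
  obtain ⟨n, -, rn⟩ := i_kn3
  have os : orderOf s = 28 := sJ.orderOf_eq rs (fuel := 28) (by decide +kernel) (by decide)
  have ow : orderOf (s ^ 4) = 7 := by rw [orderOf_pow' _ (by norm_num), os]; rfl
  have os' : orderOf (s ^ 2) = 14 := by rw [orderOf_pow' _ (by norm_num), os]; rfl
  have oy : orderOf y = 29 := ordP_spec sJ ry (L := [1, 0, 1, 1]) (by decide +kernel) (by decide +kernel)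
  have oy' : orderOf y' = 43 := ordP_spec sJ ry' (L := [1, 1, 0, 1, 0]) (by decide +kernel) (by decide +kernel)
  have sY : zpowers s ≤ normalizer (zpowers (s ^ 4) : Set J4) :=
    (zp_le_cent (pow_mem (mem_zpowers s) 4)).trans (cent_le_norm _)
  have hY : AllIn RJ2 (normalizer (zpowers (s ^ 4) : Set J4)) [k1, ks29, kf2, kn3, k1, k1, k1] :=
    .cons (pad _) (.cons ⟨s, sY (mem_zpowers s), rs⟩ (.cons ⟨f, in_norm sJ rf (sJ.pow rs 4) 1 (by decide +kernel), rf⟩
      (.cons ⟨n, in_norm sJ rn (sJ.pow rs 4) 2 (by decide +kernel), rn⟩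
        (.cons (pad _) (.cons (pad _) (.cons (pad _) (allIn_nil _)))))))
  have hS : ∀ {g : J4} {a : ℕ}, RJ2 g a → AllIn RJ2 (zpowers g) [k1, a, k1, k1, k1, k1, k1] := fun r =>
    .cons (pad _) (.cons ⟨_, mem_zpowers _, r⟩ (.cons (pad _) (.cons (pad _)
      (.cons (pad _) (.cons (pad _) (.cons (pad _) (allIn_nil _)))))))
  refine ⟨mx_seven j (by decide) chk29 oy os (in_norm sJ rs ry 2 (by decide +kernel)) (pow_mem (mem_zpowers s) 4) ow
    fun M a b => ?_, mx_seven j (by decide) chk43 oy' os' (in_norm sJ (sJ.pow rs 2) ry' 32 (by decide +kernel))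
    (w := s ^ 4) ⟨2, by rw [← pow_mul s 2 2 |>.symm]; rfl⟩ ow fun M a b => ?_⟩
  · refine (tabJ t29 c29 (by decide +kernel) le_rfl sY (zpowers_le.2 b)
      (by rw [card_norm_7 mdJ ow, Nat.card_zpowers, os]) (zpowers_le.2 (smul_pt rs (by decide +kernel))) hY (hS rs)
      (.cons ⟨y, a, ry⟩ (.cons ⟨s, b, rs⟩ (allIn_nil _)))).imp_right fun h => ?_
    exact top_of_three j (oy ▸ orderOf_dvd_card_of_mem a) (h 0 (by decide)) (h 1 (by decide))
  · refine (tabJ t43 c43 (by decide +kernel) le_rfl ((zpowers_le.2 (pow_mem (mem_zpowers s) 2)).trans sY)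
      (zpowers_le.2 b) (by rw [card_norm_7 mdJ ow, Nat.card_zpowers, os'])
      (zpowers_le.2 (smul_pt (sJ.pow rs 2) (by decide +kernel))) hY (hS (sJ.pow rs 2))
      (.cons ⟨y', a, ry'⟩ (.cons ⟨_, b, sJ.pow rs 2⟩ (allIn_nil _)))).imp_right fun h => ?_
    exact top_of_three j (h 0 (by decide)) (h 1 (by decide)) (oy' ▸ orderOf_dvd_card_of_mem a)

theorem mx37_J : Mx J4 37 := by
  obtain ⟨U, j⟩ := j11_map (MulEquiv.refl J4)
  obtain ⟨y, -, ry⟩ := i_kx37
  obtain ⟨s, -, rs⟩ := i_ks37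
  obtain ⟨f, -, rf⟩ := i_kk3
  obtain ⟨n, -, rn⟩ := i_kn37
  obtain ⟨c, -, rc⟩ := i_kc37
  have os : orderOf s = 12 := sJ.orderOf_eq rs (fuel := 12) (by decide +kernel) (by decide)
  have ow : orderOf (s ^ 4) = 3 := by rw [orderOf_pow' _ (by norm_num), os]; rfl
  have ot : orderOf (s ^ 6) = 2 := by rw [orderOf_pow' _ (by norm_num), os]; rfl
  have oy : orderOf y = 37 := ordP_spec sJ ry (L := [1, 0, 1, 0, 0]) (by decide +kernel) (by decide +kernel)
  have sY : zpowers s ≤ normalizer (zpowers (s ^ 4) : Set J4) ⊓ centralizer {s ^ 6} :=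
    le_inf ((zp_le_cent (pow_mem (mem_zpowers s) 4)).trans (cent_le_norm _)) (zp_le_cent (pow_mem (mem_zpowers s) 6))
  have cY := card_4608 mdJ ow ot (Commute.pow_pow_self s 6 4).eq
    (mem_cent.1 (in_cent sJ rc (sJ.pow rs 4) (by decide +kernel)))
    fun e => absurd ((sJ.comm_iff rc (sJ.pow rs 6)).2 e) (by decide +kernel)
  refine mx37 j seven_J.1 seven_J.2 oy os (in_norm sJ rs ry 14 (by decide +kernel)) fun M a b => ?_
  refine (tabJ t37 c37 (by decide +kernel) le_rfl sY (zpowers_le.2 b)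
    (by rw [Nat.card_zpowers, os]; exact cY) (zpowers_le.2 (smul_pt rs (by decide +kernel)))
    (.cons (pad _) (.cons ⟨s, sY (mem_zpowers s), rs⟩
      (.cons ⟨f, ⟨in_norm sJ rf (sJ.pow rs 4) 1 (by decide +kernel), in_cent sJ rf (sJ.pow rs 6) (by decide +kernel)⟩, rf⟩
      (.cons ⟨n, ⟨in_norm sJ rn (sJ.pow rs 4) 2 (by decide +kernel), in_cent sJ rn (sJ.pow rs 6) (by decide +kernel)⟩, rn⟩
        (.cons (pad _) (.cons (pad _) (.cons (pad _) (allIn_nil _))))))))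
    (.cons (pad _) (.cons ⟨_, mem_zpowers _, rs⟩ (.cons (pad _) (.cons (pad _)
      (.cons (pad _) (.cons (pad _) (.cons (pad _) (allIn_nil _))))))))
    (.cons ⟨y, a, ry⟩ (.cons ⟨s, b, rs⟩ (allIn_nil _)))).imp_right fun h => h 0 (by decide)

theorem coatom_U_J : ∃ U : Subgroup J4, Nat.card U = 11 ^ 3 ∧ IsCoatom (normalizer (U : Set J4)) := by
  obtain ⟨U, j⟩ := j11_map (MulEquiv.refl J4)
  obtain ⟨a, -, ra⟩ := i_ka11
  obtain ⟨f, -, rf⟩ := i_kf
  obtain ⟨n, -, rn⟩ := i_kn5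
  obtain ⟨c, -, rc⟩ := i_kc5a
  obtain ⟨d, -, rd⟩ := i_kc5b
  have e : normalizer (U : Set J4) = normalizer (zpowers (mdJ.u * mdJ.z) : Set J4) := norm_U j.h j.h11 j.o j.hc j.hP
  have o : orderOf f = 5 := sJ.orderOf_eq rf (fuel := 5) (by decide +kernel) (by decide)
  have r0 := reJ 0 (by decide)
  have mf : f ∈ normalizer (U : Set J4) := e ▸ in_norm sJ rf r_x 3 (by decide +kernel)
  have m0 : eJ 0 ∈ normalizer (U : Set J4) := e ▸ in_norm sJ r0 r_x 1 (by decide +kernel)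
  have m1 : mdJ.ω ∈ normalizer (U : Set J4) := e ▸ in_norm sJ r_ω r_x 1 (by decide +kernel)
  have m2 : mdJ.σ ∈ normalizer (U : Set J4) := e ▸ in_norm sJ r_σ r_x 10 (by decide +kernel)
  have m3 : a ∈ normalizer (U : Set J4) := e ▸ in_norm sJ ra r_x 1 (by decide +kernel)
  have m4 : mdJ.u * mdJ.z ∈ normalizer (U : Set J4) := e ▸ le_normalizer (mem_zpowers _)
  have cf : f ∈ centralizer {f} := mem_cent.2 rfl
  have c0 := in_cent sJ r0 rf (by decide +kernel)
  have c1 := in_cent sJ r_ω rf (by decide +kernel)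
  have c2 := in_cent sJ r_σ rf (by decide +kernel)
  refine ⟨U, (U_main j.h j.h11 j.o j.hc).1, coatom_U j seven_J.1 seven_J.2 mx37_J o mf fun M l => ?_⟩
  have c30 : 30 ∣ Nat.card ↥(normalizer (U : Set J4) ⊓ centralizer {f} ⊓
      MulAction.stabilizer J4 (vJ (cB 112 q11 i11))) := by
    have o1 : orderOf mdJ.ω = 3 := sJ.orderOf_eq r_ω (fuel := 3) (by decide +kernel) (by decide)
    have o2 : orderOf mdJ.σ = 2 := sJ.orderOf_eq r_σ (fuel := 2) (by decide +kernel) (by decide)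
    exact Nat.Coprime.mul_dvd_of_dvd_of_dvd (m := 5) (n := 6) (by norm_num)
      (o ▸ orderOf_dvd_card_of_mem ⟨⟨mf, cf⟩, smul_pt rf (by decide +kernel)⟩)
      (Nat.Coprime.mul_dvd_of_dvd_of_dvd (m := 3) (n := 2) (by norm_num)
        (o1 ▸ orderOf_dvd_card_of_mem ⟨⟨m1, c1⟩, smul_pt r_ω (by decide +kernel)⟩)
        (o2 ▸ orderOf_dvd_card_of_mem ⟨⟨m2, c2⟩, smul_pt r_σ (by decide +kernel)⟩))
  refine (tabJ t11 c11 (by decide +kernel) inf_le_left (inf_le_right.trans (cent_le_norm f)) (inf_le_left.trans l)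
    (by rw [card_norm_5 mdJ o]; have := Nat.le_of_dvd Nat.card_pos c30; omega) inf_le_right
    (.cons (pad _) (.cons ⟨f, cent_le_norm f cf, rf⟩ (.cons ⟨n, in_norm sJ rn rf 2 (by decide +kernel), rn⟩
      (.cons ⟨c, in_norm sJ rc rf 1 (by decide +kernel), rc⟩ (.cons ⟨d, in_norm sJ rd rf 1 (by decide +kernel), rd⟩
        (.cons (pad _) (.cons (pad _) (allIn_nil _))))))))
    (.cons (pad _) (.cons ⟨f, ⟨mf, cf⟩, rf⟩ (.cons ⟨_, ⟨m0, c0⟩, r0⟩ (.cons ⟨_, ⟨m1, c1⟩, r_ω⟩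
      (.cons ⟨_, ⟨m2, c2⟩, r_σ⟩ (.cons (pad _) (.cons (pad _) (allIn_nil _))))))))
    (.cons ⟨_, l m4, r_x⟩ (.cons ⟨a, l m3, ra⟩ (.cons ⟨f, l mf, rf⟩ (.cons ⟨_, l m0, r0⟩ (.cons ⟨_, l m1, r_ω⟩
      (.cons ⟨_, l m2, r_σ⟩ (allIn_nil _)))))))).imp (fun h => h.trans inf_le_right)
    fun h b => absurd ((h 0 (by decide)).trans b) (by decide +kernel)

theorem eqns_Tab : True := by
  have := @cfgN.eq_1
  have := @bp.eq_1
  have := @bv.eq_1
  have := @bv.eq_2
  have := @bv.eq_def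
  have := @ordP.eq_1
  have := @certAt.eq_1
  have := @tabChk.eq_1
  have := @k1.eq_1
  trivial

end H74.J4M
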